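import Mathlib

/-!
# Four-fold transitive groups with odd four-point stabiliser: basic lemmas

`Hyp G` is the standing hypothesis: `G ≤ Sym α` is 4-transitive and elements fixing four points
have odd order.  Involutions are manufactured as odd powers (`lift_inv`), conjugated by
square roots of odd elements (`conj_of_agree`) and made to commute (`comm_of`).
-/

set_option autoImplicit false
set_option linter.unusedSectionVars false
set_option linter.style.haveILetI false

namespace Cfsg.Agent.Lib.FourOdd.Basic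

open Equiv

variable {α : Type*} [Fintype α] [DecidableEq α]

/-- four distinct points -/
def Fr (a b c d : α) : Prop := a ≠ b ∧ a ≠ c ∧ a ≠ d ∧ b ≠ c ∧ b ≠ d ∧ c ≠ d

/-- standing hypothesis -/
structure Hyp (G : Subgroup (Perm α)) : Prop where
  trans : ∀ {a b c d a' b' c' d' : α}, Fr a b c d → Fr a' b' c' d' →
    ∃ g ∈ G, g a = a' ∧ g b = b' ∧ g c = c' ∧ g d = d'
  odd : ∀ {g : Perm α}, g ∈ G → ∀ {a b c d : α}, Fr a b c d →
    g a = a → g b = b → g c = c → g d = d → Odd (orderOf g)

/-- fixed point set -/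
def fx (g : Perm α) : Finset α := Finset.univ.filter (fun p => g p = p)

theorem mem_fx {g : Perm α} {p : α} : p ∈ fx g ↔ g p = p := by simp [fx]

/-- involution of `G` -/
def Invol (G : Subgroup (Perm α)) (u : Perm α) : Prop := u ∈ G ∧ u * u = 1 ∧ u ≠ 1

theorem app_app {u : Perm α} (h : u * u = 1) (p : α) : u (u p) = p := by
  have := congrArg (fun g : Perm α => g p) h
  simpa using this

theorem pow_fix {z : Perm α} {p : α} (h : z p = p) (k : ℕ) : (z ^ k) p = p := by
  induction k with
  | zero => simp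
  | succ k ih => rw [pow_succ, Perm.mul_apply, h, ih]

/-- An element of odd order cannot swap two points. -/
theorem fix_of_odd {y : Perm α} (h : Odd (orderOf y)) {p : α} (hp : y (y p) = p) : y p = p := by
  obtain ⟨k, hk⟩ := h
  have h1 : y ^ (2 * k + 1) = 1 := by rw [← hk]; exact pow_orderOf_eq_one y
  have h2 : y ^ (2 * k + 1) = y * (y * y) ^ k := by
    rw [pow_succ', pow_mul, pow_two]
  have h3 : ((y * y) ^ k) p = p := pow_fix (by simpa using hp) k
  have h4 := congrArg (fun g : Perm α => g p) (h2.symm.trans h1)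
  simpa [h3] using h4

theorem odd_eq_one_of_two_pow {z : Perm α} (h : Odd (orderOf z)) {k : ℕ} (hk : z ^ 2 ^ k = 1) :
    z = 1 := by
  have h1 : orderOf z ∣ 2 ^ k := orderOf_dvd_of_pow_eq_one hk
  have h2 : Nat.Coprime (orderOf z) (2 ^ k) :=
    Nat.Coprime.pow_right k (Nat.Coprime.symm (Nat.coprime_two_left.2 h))
  have h3 : orderOf z = 1 := Nat.eq_one_of_dvd_coprimes h2 (dvd_refl _) h1
  exact orderOf_eq_one_iff.1 h3

section
variable {G : Subgroup (Perm α)} (hG : Hyp G)
include hG

/-- **L1**: if `g²` fixes a frame, an odd power of `g` is an involution acting like `g` on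
the fixed points of `g²`. -/
theorem lift_inv {g : Perm α} (hg : g ∈ G) {a b c d : α} (fr : Fr a b c d)
    (ha : g (g a) = a) (hb : g (g b) = b) (hc : g (g c) = c) (hd : g (g d) = d) :
    ∃ m : ℕ, (g ^ m) * (g ^ m) = 1 ∧ ∀ p, g (g p) = p → (g ^ m) p = g p := by
  have hz : g * g ∈ G := G.mul_mem hg hg
  obtain ⟨k, hk⟩ := hG.odd hz fr (by simpa using ha) (by simpa using hb) (by simpa using hc)
    (by simpa using hd)
  refine ⟨2 * k + 1, ?_, fun p hp => ?_⟩
  · have h1 : (g * g) ^ (2 * k + 1) = 1 := by rw [← hk]; exact pow_orderOf_eq_one _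
    rw [← pow_add, ← h1, ← pow_two, ← pow_mul]
    congr 1
    ring
  · have h2 : g ^ (2 * k + 1) = g * (g * g) ^ k := by
      rw [pow_succ', pow_mul, pow_two]
    rw [h2, Perm.mul_apply, pow_fix (by simpa using hp) k]

/-- **L2**: two involutions with `t' t` fixing a frame are conjugate by an element fixing
everything `t' t` fixes. -/
theorem conj_of_agree {t t' : Perm α} (ht : t ∈ G) (ht' : t' ∈ G) (h2 : t * t = 1)
    (h2' : t' * t' = 1) {a b c d : α} (fr : Fr a b c d)
    (ha : t' (t a) = a) (hb : t' (t b) = b) (hc : t' (t c) = c) (hd : t' (t d) = d) :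
    ∃ w ∈ G, (∀ p, t' (t p) = p → w p = p) ∧ t' = w * t * w⁻¹ := by
  have hz : t' * t ∈ G := G.mul_mem ht' ht
  obtain ⟨k, hk⟩ := hG.odd hz fr (by simpa using ha) (by simpa using hb) (by simpa using hc)
    (by simpa using hd)
  set z := t' * t with hzdef
  have hz1 : z ^ (2 * k + 1) = 1 := by rw [← hk]; exact pow_orderOf_eq_one _
  have htinv : t⁻¹ = t := inv_eq_of_mul_eq_one_left h2
  have htz : t * z * t = z⁻¹ := by
    have hinv' : t'⁻¹ = t' := inv_eq_of_mul_eq_one_left h2'
    rw [hzdef, mul_inv_rev, htinv, hinv', mul_assoc, mul_assoc, h2, mul_one]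
  set w := z ^ (k + 1) with hw
  have hww : w * w = z := by
    rw [hw, ← pow_add]
    have : k + 1 + (k + 1) = (2 * k + 1) + 1 := by ring
    rw [this, pow_succ, hz1, one_mul]
  have htw : t * w * t = w⁻¹ := by
    have h3 : (t * z * t⁻¹) ^ (k + 1) = t * z ^ (k + 1) * t⁻¹ := conj_pow
    rw [htinv, htz, inv_pow] at h3
    rw [← hw] at h3
    exact h3.symm
  refine ⟨w, G.pow_mem hz _, fun p hp => pow_fix (by simpa [hzdef] using hp) _, ?_⟩
  have h4 : w⁻¹ = t * w * t := htw.symm
  calc t' = z * t := by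
        rw [hzdef, mul_assoc, h2, mul_one]
    _ = w * w * t := by rw [hww]
    _ = w * (t * t) * w * t := by rw [h2, mul_one]
    _ = w * t * (t * w * t) := by simp only [mul_assoc]
    _ = w * t * w⁻¹ := by rw [h4]

/-- **L3**: if `(t s)²` fixes a frame, then some involution acts like `s` on the fixed points of
`(t s)²` and commutes with `t`. -/
theorem comm_of {s t : Perm α} (hs : s ∈ G) (ht : t ∈ G) (s2 : s * s = 1) (t2 : t * t = 1)
    {a b c d : α} (fr : Fr a b c d)
    (ha : t (s (t (s a))) = a) (hb : t (s (t (s b))) = b) (hc : t (s (t (s c))) = c)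
    (hd : t (s (t (s d))) = d) :
    ∃ s' ∈ G, s' * s' = 1 ∧ s' * t = t * s' ∧ ∀ p, t (s (t (s p))) = p → s' p = s p := by
  set y := t * s with hy
  have hyG : y ∈ G := G.mul_mem ht hs
  have hz : y * y ∈ G := G.mul_mem hyG hyG
  obtain ⟨k, hk⟩ := hG.odd hz fr (by simpa [hy] using ha) (by simpa [hy] using hb)
    (by simpa [hy] using hc) (by simpa [hy] using hd)
  have h1 : (y * y) ^ (2 * k + 1) = 1 := by rw [← hk]; exact pow_orderOf_eq_one _
  set v := y ^ (2 * k + 1) with hv
  have hvv : v * v = 1 := by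
    rw [hv, ← pow_add, ← h1, ← pow_two, ← pow_mul]
    congr 1
    ring
  have hvinv : v⁻¹ = v := inv_eq_of_mul_eq_one_left hvv
  have htinv : t⁻¹ = t := inv_eq_of_mul_eq_one_left t2
  have hsinv : s⁻¹ = s := inv_eq_of_mul_eq_one_left s2
  have hty : t * y * t = y⁻¹ := by
    rw [hy, mul_inv_rev, hsinv, htinv, ← mul_assoc, t2, one_mul]
  have htv : t * v * t = v := by
    have h3 : (t * y * t⁻¹) ^ (2 * k + 1) = t * y ^ (2 * k + 1) * t⁻¹ := conj_pow
    rw [htinv, hty, inv_pow, ← hv, hvinv] at h3
    exact h3.symm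
  have htv' : t * v = v * t := by
    calc t * v = (t * v * t) * t := by rw [mul_assoc, mul_assoc, t2, mul_one]
      _ = v * t := by rw [htv]
  refine ⟨t * v, G.mul_mem ht (G.pow_mem hyG _), ?_, ?_, fun p hp => ?_⟩
  · calc t * v * (t * v) = (t * v * t) * v := by simp only [mul_assoc]
      _ = v * v := by rw [htv]
      _ = 1 := hvv
  · rw [mul_assoc, ← htv']
  · have h2 : y ^ (2 * k + 1) = y * (y * y) ^ k := by
      rw [pow_succ', pow_mul, pow_two]
    have h3 : ((y * y) ^ k) p = p := pow_fix (by simpa [hy] using hp) k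
    rw [Perm.mul_apply, hv, h2, Perm.mul_apply, h3, hy, Perm.mul_apply, app_app t2]

/-- elements with four fixed points have odd order -/
theorem odd_of_card {g : Perm α} (hg : g ∈ G) (h : 4 ≤ (fx g).card) : Odd (orderOf g) := by
  obtain ⟨s, hs, hc⟩ := Finset.exists_subset_card_eq h
  obtain ⟨a, s1, ha, rfl, hc1⟩ := Finset.card_eq_succ.1 hc
  obtain ⟨b, s2, hb, rfl, hc2⟩ := Finset.card_eq_succ.1 hc1
  obtain ⟨c, d, hcd, rfl⟩ := Finset.card_eq_two.1 hc2
  have fr : Fr a b c d := by
    simp only [Finset.mem_insert, Finset.mem_singleton, not_or] at ha hb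
    exact ⟨ha.1, ha.2.1, ha.2.2, hb.1, hb.2, hcd⟩
  have hf : ∀ p, p ∈ (insert a (insert b {c, d}) : Finset α) → g p = p :=
    fun p hp => mem_fx.1 (hs hp)
  exact hG.odd hg fr (hf a (by simp)) (hf b (by simp)) (hf c (by simp)) (hf d (by simp))

/-- involutions fix at most three points -/
theorem fx_le {u : Perm α} (hu : Invol G u) : (fx u).card ≤ 3 := by
  by_contra h
  have h1 := odd_of_card hG hu.1 (by omega)
  have h2 : orderOf u = 2 := orderOf_eq_prime (by rw [pow_two]; exact hu.2.1) hu.2.2
  rw [h2] at h1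
  exact absurd h1 (by decide)

/-- a 2-element fixing four points is trivial -/
theorem two_el_trivial {z : Perm α} (hz : z ∈ G) {k : ℕ} (hk : z ^ 2 ^ k = 1)
    {a b c d : α} (fr : Fr a b c d) (ha : z a = a) (hb : z b = b) (hc : z c = c) (hd : z d = d) :
    z = 1 := odd_eq_one_of_two_pow (hG.odd hz fr ha hb hc hd) hk

/-- **KL**: involutions are conjugate, compatibly with oriented frames. -/
theorem key_conj {u u' : Perm α} (hu : Invol G u) (hu' : Invol G u') {a x a' x' : α}
    (ha : u a ≠ a) (hx : u x ≠ x) (hxa : x ≠ a) (hxb : x ≠ u a)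
    (ha' : u' a' ≠ a') (hx' : u' x' ≠ x') (hxa' : x' ≠ a') (hxb' : x' ≠ u' a') :
    ∃ g ∈ G, g * u = u' * g ∧ g a = a' ∧ g x = x' := by
  have fr0 : ∀ {v : Perm α} {p q : α}, v * v = 1 → v p ≠ p → v q ≠ q → q ≠ p → q ≠ v p →
      Fr p (v p) q (v q) := by
    intro v p q hv hp hq h1 h2
    have hvv := app_app hv
    refine ⟨hp.symm, h1.symm, ?_, h2.symm, ?_, hq.symm⟩
    · intro h
      apply h2
      rw [h, hvv]
    · intro h
      apply h1
      have := congrArg v h
      rwa [hvv, hvv, eq_comm] at this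
  have fr := fr0 hu.2.1 ha hx hxa hxb
  have fr' := fr0 hu'.2.1 ha' hx' hxa' hxb'
  obtain ⟨g₀, hg₀, h1, h2, h3, h4⟩ := hG.trans fr fr'
  have hg₀inv : ∀ p q, g₀ p = q → g₀⁻¹ q = p := fun p q h => by rw [← h]; simp
  set t := g₀ * u * g₀⁻¹ with ht
  have htG : t ∈ G := G.mul_mem (G.mul_mem hg₀ hu.1) (G.inv_mem hg₀)
  have ht2 : t * t = 1 := by
    calc t * t = g₀ * (u * u) * g₀⁻¹ := by rw [ht]; group
      _ = 1 := by rw [hu.2.1]; group
  have huu := app_app hu.2.1
  have hu'u' := app_app hu'.2.1
  have ta : t a' = u' a' := by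
    simp only [ht, Perm.mul_apply]
    rw [hg₀inv _ _ h1, h2]
  have tb : t (u' a') = a' := by
    simp only [ht, Perm.mul_apply]
    rw [hg₀inv _ _ h2, huu, h1]
  have tx : t x' = u' x' := by
    simp only [ht, Perm.mul_apply]
    rw [hg₀inv _ _ h3, h4]
  have ty : t (u' x') = x' := by
    simp only [ht, Perm.mul_apply]
    rw [hg₀inv _ _ h4, huu, h3]
  obtain ⟨w, hw, hw1, hw2⟩ := conj_of_agree hG htG hu'.1 ht2 hu'.2.1 fr'
    (by rw [ta, hu'u']) (by rw [tb]) (by rw [tx, hu'u']) (by rw [ty])
  refine ⟨w * g₀, G.mul_mem hw hg₀, ?_, ?_, ?_⟩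
  · rw [hw2, ht]
    group
  · rw [Perm.mul_apply, h1]
    exact hw1 _ (by rw [ta, hu'u'])
  · rw [Perm.mul_apply, h3]
    exact hw1 _ (by rw [tx, hu'u'])

end

/-- An involution moves an even number of points. -/
theorem card_parity {u : Perm α} (h : u * u = 1) :
    (Fintype.card α) % 2 = (fx u).card % 2 := by
  have h1 : 2 ∣ u.support.card := Equiv.Perm.two_dvd_card_support (by rw [pow_two]; exact h)
  have h2 : u.support.card + (fx u).card = Fintype.card α := by
    have : fx u = u.supportᶜ := by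
      ext p
      simp [mem_fx]
    rw [this, Finset.card_add_card_compl]
  omega

/-- Burnside for a Klein four group. -/
theorem burnside_four {s t : Perm α} (s2 : s * s = 1) (t2 : t * t = 1) (hst : s * t = t * s)
    (hs1 : s ≠ 1) (ht1 : t ≠ 1) (hne : s ≠ t) :
    4 ∣ Fintype.card α + (fx s).card + (fx t).card + (fx (s * t)).card := by
  classical
  have hsinv : s⁻¹ = s := inv_eq_of_mul_eq_one_left s2
  have htinv : t⁻¹ = t := inv_eq_of_mul_eq_one_left t2
  have e1 : t * s = s * t := hst.symm
  have e2 : s * (s * t) = t := by rw [← mul_assoc, s2, one_mul]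
  have e3 : t * (s * t) = s := by rw [← mul_assoc, e1, mul_assoc, t2, mul_one]
  have e4 : s * t * s = t := by rw [hst, mul_assoc, s2, mul_one]
  have e5 : s * t * t = s := by rw [mul_assoc, t2, mul_one]
  have e6 : s * t * (s * t) = 1 := by rw [← mul_assoc, e4, t2]
  have hst1 : s * t ≠ 1 := by
    intro h
    exact hne (by rw [← inv_eq_of_mul_eq_one_left h, htinv])
  have hsst : s ≠ s * t := fun h => ht1 (by simpa using h)
  have htst : t ≠ s * t := fun h => hs1 (by simpa using (e3.symm.trans (by rw [← h, t2])))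
  let A : Subgroup (Perm α) :=
    { carrier := {x | x = 1 ∨ x = s ∨ x = t ∨ x = s * t}
      one_mem' := Or.inl rfl
      mul_mem' := by
        rintro x y (rfl | rfl | rfl | rfl) (rfl | rfl | rfl | rfl) <;>
          simp [s2, t2, e1, e2, e3, e4, e5, e6]
      inv_mem' := by
        rintro x (rfl | rfl | rfl | rfl)
        · simp
        · simp [hsinv]
        · simp [htinv]
        · simp [hsinv, htinv, e1] }
  have hmem : ∀ x, x ∈ ({1, s, t, s * t} : Finset (Perm α)) ↔ x ∈ A := by
    intro x
    simp only [Finset.mem_insert, Finset.mem_singleton]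
    rfl
  have hcardA : Fintype.card A = 4 := by
    have : (Finset.univ.filter (· ∈ A)) = ({1, s, t, s * t} : Finset (Perm α)) := by
      ext x
      simp [← hmem]
    rw [Fintype.card_subtype, this]
    rw [Finset.card_insert_of_notMem, Finset.card_insert_of_notMem, Finset.card_insert_of_notMem,
      Finset.card_singleton]
    · simpa using htst
    · simp only [Finset.mem_insert, Finset.mem_singleton, not_or]
      exact ⟨hne, hsst⟩
    · simp only [Finset.mem_insert, Finset.mem_singleton, not_or]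
      exact ⟨hs1.symm, ht1.symm, hst1.symm⟩
  have hb := MulAction.sum_card_fixedBy_eq_card_orbits_mul_card_group A α
  have hfix : ∀ x : A, Fintype.card (MulAction.fixedBy α x) = (fx (x : Perm α)).card := by
    intro x
    rw [Fintype.card_of_subtype]
    intro p
    simp [mem_fx, MulAction.mem_fixedBy, Subgroup.smul_def, Perm.smul_def]
  simp only [hfix] at hb
  have hsum : ∑ x : A, (fx (x : Perm α)).card =
      ∑ x ∈ ({1, s, t, s * t} : Finset (Perm α)), (fx x).card :=
    (Finset.sum_subtype _ hmem (fun x => (fx x).card)).symm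
  rw [hsum, hcardA] at hb
  rw [Finset.sum_insert (by simp only [Finset.mem_insert, Finset.mem_singleton, not_or]
                            exact ⟨hs1.symm, ht1.symm, hst1.symm⟩),
    Finset.sum_insert (by simp only [Finset.mem_insert, Finset.mem_singleton, not_or]
                          exact ⟨hne, hsst⟩),
    Finset.sum_insert (by simpa using htst), Finset.sum_singleton] at hb
  have h1 : (fx (1 : Perm α)).card = Fintype.card α := by
    simp [fx]
  rw [h1] at hb
  have : Fintype.card α + (fx s).card + (fx t).card + (fx (s * t)).card =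
      Fintype.card (Quotient (MulAction.orbitRel A α)) * 4 := by
    rw [← hb]
    ring
  rw [this]
  exact Dvd.intro_left _ rfl

end Cfsg.Agent.Lib.FourOdd.Basic
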