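import Cfsg.Agent.Lib.FourOdd.Basic

/-!
# A group-theoretic lemma: 2-groups with two special automorphisms, and Burnside's transfer

If a nontrivial 2-group `P` has an automorphism `φ` without nontrivial fixed points, and an
involutive automorphism `ξ` with at most one nontrivial fixed point then `|P| = 4`.
-/

set_option autoImplicit false
set_option linter.unusedSectionVars false
set_option linter.style.haveILetI false

namespace Cfsg.Agent.Lib.FourOdd.GroupAB

open Equiv
open Cfsg.Agent.Lib.FourOdd.Basic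

section A
variable {P : Type*} [Group P] [Finite P]

theorem card_four (hP : IsPGroup 2 P) [Nontrivial P] (ξ φ : P ≃* P) (hξ : ∀ z, ξ (ξ z) = z)
    (hφ : ∀ z, φ z = z → z = 1)
    (hC : ∀ z₁ z₂, ξ z₁ = z₁ → ξ z₂ = z₂ → z₁ ≠ 1 → z₂ ≠ 1 → z₁ = z₂) : Nat.card P = 4 := by
  classical
  haveI := Fintype.ofFinite P
  let E : Subgroup P :=
    { carrier := {z | (∀ g, g * z = z * g) ∧ z * z = 1}
      mul_mem' := by
        rintro x y ⟨hx, hx'⟩ ⟨hy, hy'⟩
        refine ⟨fun g => ?_, ?_⟩
        · rw [← mul_assoc, hx, mul_assoc, hy, mul_assoc]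
        · calc x * y * (x * y) = x * (y * x) * y := by simp only [mul_assoc]
            _ = x * (x * y) * y := by rw [hx y]
            _ = (x * x) * (y * y) := by simp only [mul_assoc]
            _ = 1 := by rw [hx', hy', one_mul]
      one_mem' := ⟨by simp, by simp⟩
      inv_mem' := by
        rintro x ⟨hx, hx'⟩
        have : x⁻¹ = x := inv_eq_of_mul_eq_one_left hx'
        rw [Set.mem_ofPred_eq, this]
        exact ⟨hx, hx'⟩ }
  have mem_E : ∀ {z}, z ∈ E ↔ (∀ g, g * z = z * g) ∧ z * z = 1 := Iff.rfl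
  have E_inv : ∀ (e : P ≃* P) {z}, z ∈ E → e z ∈ E := by
    intro e z hz
    refine ⟨fun g => ?_, ?_⟩
    · have h1 : g = e (e.symm g) := by simp
      rw [h1, ← map_mul, hz.1, map_mul]
    · rw [← map_mul, hz.2, map_one]
  have hZ : ∃ e₀ ∈ E, e₀ ≠ 1 := by
    haveI := hP.center_nontrivial
    have hZP : IsPGroup 2 (Subgroup.center P) := hP.to_subgroup _
    obtain ⟨n, hn⟩ := IsPGroup.iff_card.1 hZP
    have hn0 : n ≠ 0 := by
      rintro rfl
      have := Finite.one_lt_card (α := Subgroup.center P)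
      rw [hn] at this
      simp at this
    obtain ⟨x, hx⟩ := exists_prime_orderOf_dvd_card' (G := Subgroup.center P) 2
      (by rw [hn]; exact dvd_pow_self 2 hn0)
    have hx2 : (x : P) * x = 1 := by
      have := pow_orderOf_eq_one x
      rw [hx, pow_two] at this
      exact congrArg Subtype.val this
    have hx1 : (x : P) ≠ 1 := by
      intro h
      have : x = 1 := Subtype.ext h
      rw [this, orderOf_one] at hx
      omega
    exact ⟨x, ⟨fun g => (Subgroup.mem_center_iff.1 x.2 g), hx2⟩, hx1⟩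
  obtain ⟨e₀, he₀, he₀1⟩ := hZ
  -- `ξ` acts nontrivially on `E`
  have hex : ∃ e₂ ∈ E, ξ e₂ ≠ e₂ := by
    by_contra hcon
    push Not at hcon
    have h1 := E_inv φ he₀
    have h2 : φ e₀ ≠ 1 := by
      intro h
      apply he₀1
      rw [← map_one φ] at h
      exact φ.injective h
    exact he₀1 (hφ e₀ (hC _ _ (hcon _ h1) (hcon _ he₀) h2 he₀1))
  obtain ⟨e₂, he₂, he₂ξ⟩ := hex
  have e₂1 : e₂ ≠ 1 := by
    rintro rfl
    exact he₂ξ (map_one ξ)
  have e₂inv : e₂⁻¹ = e₂ := inv_eq_of_mul_eq_one_left he₂.2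
  set e₁ := e₂ * ξ e₂ with he₁
  have he₁E : e₁ ∈ E := E.mul_mem he₂ (E_inv ξ he₂)
  have he₁ξ : ξ e₁ = e₁ := by
    rw [he₁, map_mul, hξ, (E_inv ξ he₂).1]
  have he₁1 : e₁ ≠ 1 := by
    intro h
    apply he₂ξ
    have h1 : ξ e₂ = e₂⁻¹ := eq_inv_of_mul_eq_one_right h
    rw [h1, e₂inv]
  -- fixed elements
  have hfix : ∀ z, ξ z = z → z = 1 ∨ z = e₁ := by
    intro z hz
    by_cases h : z = 1
    · exact Or.inl h
    · exact Or.inr (hC _ _ hz he₁ξ h he₁1)
  have ξe₂ : ξ e₂ = e₂ * e₁ := by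
    rw [he₁, ← mul_assoc, he₂.2, one_mul]
  -- `E` is the four-set
  have hE : ∀ z ∈ E, z = 1 ∨ z = e₁ ∨ z = e₂ ∨ z = e₂ * e₁ := by
    intro z hz
    have hz2 : z⁻¹ = z := inv_eq_of_mul_eq_one_left hz.2
    have h1 : ξ (z * ξ z) = z * ξ z := by
      rw [map_mul, hξ, (E_inv ξ hz).1]
    rcases hfix _ h1 with h | h
    · have : ξ z = z := by
        have h3 : ξ z = z⁻¹ := eq_inv_of_mul_eq_one_right h
        rw [h3, hz2]
      rcases hfix _ this with h' | h'
      · exact Or.inl h'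
      · exact Or.inr (Or.inl h')
    · -- `z e₂` is fixed
      have h2 : (z * e₂) * ξ (z * e₂) = 1 := by
        rw [map_mul]
        calc z * e₂ * (ξ z * ξ e₂) = z * (e₂ * ξ z) * ξ e₂ := by simp only [mul_assoc]
          _ = z * (ξ z * e₂) * ξ e₂ := by rw [he₂.1 (ξ z)]
          _ = (z * ξ z) * (e₂ * ξ e₂) := by simp only [mul_assoc]
          _ = e₁ * e₁ := by rw [h]
          _ = 1 := he₁E.2
      have hzE : z * e₂ ∈ E := E.mul_mem hz he₂
      have h3 : ξ (z * e₂) = z * e₂ := by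
        have h4 : ξ (z * e₂) = (z * e₂)⁻¹ := eq_inv_of_mul_eq_one_right h2
        rw [h4]
        exact inv_eq_of_mul_eq_one_left hzE.2
      rcases hfix _ h3 with h' | h'
      · right; right; left
        have : z = e₂⁻¹ := eq_inv_of_mul_eq_one_left h'
        rw [this, e₂inv]
      · right; right; right
        have h5 : z = e₁ * e₂⁻¹ := eq_mul_inv_of_mul_eq h'
        rw [h5, e₂inv, he₂.1 e₁]
  -- `P = E`
  have hPE : ∀ w, w ∈ E := by
    by_contra hcon
    push Not at hcon
    obtain ⟨w₀, hw₀⟩ := hcon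
    have hEnormal : E.Normal := by
      constructor
      intro n hn g
      rw [hn.1 g, mul_assoc, mul_inv_cancel, mul_one]
      exact hn
    let f : P ⧸ E →* P ⧸ E := QuotientGroup.map E E ξ.toMonoidHom (fun z hz => E_inv ξ hz)
    have hf : ∀ x : P, f (x : P ⧸ E) = ((ξ x : P) : P ⧸ E) := fun x => rfl
    have hinv : Function.Involutive f := by
      intro q
      obtain ⟨x, rfl⟩ := QuotientGroup.mk_surjective q
      rw [hf, hf, hξ]
    haveI : Fintype (P ⧸ E) := Fintype.ofFinite _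
    let u : Perm (P ⧸ E) := hinv.toPerm
    have hu : u * u = 1 := Equiv.ext fun q => hinv q
    have hpar := card_parity hu
    -- the quotient has even order
    obtain ⟨n, hn⟩ := IsPGroup.iff_card.1 hP
    have hdvd : Nat.card (P ⧸ E) ∣ 2 ^ n := by
      rw [← hn]
      exact Subgroup.card_quotient_dvd_card E
    obtain ⟨j, -, hj⟩ := (Nat.dvd_prime_pow Nat.prime_two).1 hdvd
    have hj0 : j ≠ 0 := by
      rintro rfl
      rw [pow_zero] at hj
      have h1 : E.index = 1 := hj
      rw [Subgroup.index_eq_one] at h1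
      rw [h1] at hw₀
      exact hw₀ (Subgroup.mem_top _)
    have heven : Fintype.card (P ⧸ E) % 2 = 0 := by
      rw [← Nat.card_eq_fintype_card, hj]
      exact Nat.mod_eq_zero_of_dvd (dvd_pow_self 2 hj0)
    have hone : (1 : P ⧸ E) ∈ fx u := by
      rw [mem_fx]
      exact map_one f
    have hgt : 1 < (fx u).card := by
      have hpos : 0 < (fx u).card := Finset.card_pos.2 ⟨_, hone⟩
      omega
    obtain ⟨q, hq, hq1⟩ := Finset.exists_mem_ne hgt 1
    obtain ⟨w, rfl⟩ := QuotientGroup.mk_surjective q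
    have hwE : w ∉ E := by
      intro h
      exact hq1 ((QuotientGroup.eq_one_iff w).2 h)
    have hw : ((ξ w : P) : P ⧸ E) = (w : P ⧸ E) := by
      rw [mem_fx] at hq
      exact hq
    have hd : w⁻¹ * ξ w ∈ E := by
      rw [← QuotientGroup.eq]
      exact hw.symm
    set e := w⁻¹ * ξ w with he
    have hwe : ξ w = w * e := by rw [he]; group
    have he2 : ξ e = e := by
      have h1 : w = w * e * ξ e := by
        have := hξ w
        rw [hwe, map_mul, hwe] at this
        exact this.symm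
      have h2 : e * ξ e = 1 := by
        have h3 : w * (e * ξ e) = w * 1 := by
          rw [← mul_assoc, ← h1, mul_one]
        exact mul_left_cancel h3
      have h3 : ξ e = e⁻¹ := eq_inv_of_mul_eq_one_right h2
      rw [h3]
      exact inv_eq_of_mul_eq_one_left hd.2
    rcases hfix e he2 with h | h
    · rw [h, mul_one] at hwe
      rcases hfix w hwe with h' | h'
      · exact hwE (h' ▸ E.one_mem)
      · exact hwE (h' ▸ he₁E)
    · have h1 : ξ (w * e₂) = w * e₂ := by
        rw [map_mul, hwe, ξe₂, h]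
        calc w * e₁ * (e₂ * e₁) = w * (e₁ * e₂ * e₁) := by simp only [mul_assoc]
          _ = w * (e₂ * e₁ * e₁) := by rw [he₂.1 e₁]
          _ = w * e₂ := by rw [mul_assoc e₂, he₁E.2, mul_one]
      have h2 : w * e₂ ∈ E := by
        rcases hfix _ h1 with h' | h'
        · exact h' ▸ E.one_mem
        · exact h' ▸ he₁E
      apply hwE
      have : w = w * e₂ * e₂⁻¹ := by group
      rw [this]
      exact E.mul_mem h2 (E.inv_mem he₂)
  -- count
  have huniv : (Finset.univ : Finset P) = {1, e₁, e₂, e₂ * e₁} := by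
    ext z
    simp only [Finset.mem_univ, Finset.mem_insert, Finset.mem_singleton, true_iff]
    exact hE z (hPE z)
  have h12 : (1 : P) ≠ e₁ := he₁1.symm
  have h13 : (1 : P) ≠ e₂ := e₂1.symm
  have h14 : (1 : P) ≠ e₂ * e₁ := by
    intro h
    have h5 : e₁ = e₂⁻¹ := eq_inv_of_mul_eq_one_right h.symm
    rw [e₂inv] at h5
    apply he₂ξ
    rw [← h5, he₁ξ]
  have h23 : e₁ ≠ e₂ := by
    intro h
    apply he₂ξ
    rw [← h, he₁ξ]
  have h24 : e₁ ≠ e₂ * e₁ := by
    intro h
    apply e₂1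
    have : 1 * e₁ = e₂ * e₁ := by rw [one_mul]; exact h
    exact (mul_right_cancel this).symm
  have h34 : e₂ ≠ e₂ * e₁ := by
    intro h
    apply he₁1
    have : e₂ * 1 = e₂ * e₁ := by rw [mul_one]; exact h
    exact (mul_left_cancel this).symm
  rw [Nat.card_eq_fintype_card, ← Finset.card_univ, huniv]
  rw [Finset.card_insert_of_notMem, Finset.card_insert_of_notMem, Finset.card_pair h34]
  · simp only [Finset.mem_insert, Finset.mem_singleton, not_or]
    exact ⟨h23, h24⟩
  · simp only [Finset.mem_insert, Finset.mem_singleton, not_or]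
    exact ⟨h12, h13, h14⟩

end A

section B
variable {Γ : Type*} [Group Γ] [Finite Γ]

/-- restriction of an automorphism to an invariant subgroup -/
def restrictEquiv (e : Γ ≃* Γ) (P : Subgroup Γ) (h : ∀ z ∈ P, e z ∈ P)
    (h' : ∀ z ∈ P, e.symm z ∈ P) : P ≃* P where
  toFun z := ⟨e z, h z z.2⟩
  invFun z := ⟨e.symm z, h' z z.2⟩
  left_inv z := Subtype.ext (by simp)
  right_inv z := Subtype.ext (by simp)
  map_mul' x y := Subtype.ext (by simp)

theorem restrictEquiv_coe (e : Γ ≃* Γ) (P : Subgroup Γ) (h : ∀ z ∈ P, e z ∈ P)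
    (h' : ∀ z ∈ P, e.symm z ∈ P) (z : P) : (restrictEquiv e P h h' z : Γ) = e z := rfl

open scoped Pointwise in
theorem exists_chi (ξ γ : Γ ≃* Γ) (hξ : ∀ z, ξ (ξ z) = z)
    (hne : ∃ z : Γ, z ≠ 1 ∧ ∃ k : ℕ, z ^ 2 ^ k = 1)
    (hγ : ∀ z : Γ, z ≠ 1 → (∃ k : ℕ, z ^ 2 ^ k = 1) → ∀ w, γ z ≠ w * z * w⁻¹)
    (hC : ∀ P : Sylow 2 Γ, (∀ z ∈ (P : Subgroup Γ), ξ z ∈ (P : Subgroup Γ)) →
      ∀ z₁ ∈ (P : Subgroup Γ), ∀ z₂ ∈ (P : Subgroup Γ), ξ z₁ = z₁ → ξ z₂ = z₂ → z₁ ≠ 1 → z₂ ≠ 1 →
        z₁ = z₂) :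
    ∃ (A : Subgroup Γ) (χ : Γ →* A), Nat.card A = 4 ∧ ∀ y, χ y = 1 → Odd (orderOf y) := by
  classical
  haveI : Fintype (Sylow 2 Γ) := Fintype.ofFinite _
  -- a `ξ`-invariant Sylow subgroup
  let ξ' : MulAut Γ := ξ
  have hξξ : ξ' * ξ' = 1 := by
    ext z
    exact hξ z
  let us : Perm (Sylow 2 Γ) := MulAction.toPerm ξ'
  have hus : us * us = 1 := by
    ext P : 1
    change ξ' • ξ' • P = P
    rw [← mul_smul, hξξ, one_smul]
  have hpar := card_parity hus
  have hcard1 : Fintype.card (Sylow 2 Γ) % 2 = 1 := by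
    have := card_sylow_modEq_one 2 Γ
    rw [Nat.card_eq_fintype_card] at this
    exact this
  have hpos : 0 < (fx us).card := by omega
  obtain ⟨P, hP⟩ := Finset.card_pos.1 hpos
  rw [mem_fx] at hP
  have hPξ : ξ' • P = P := hP
  have hPc : ξ' • (P : Subgroup Γ) = (P : Subgroup Γ) := by
    have := congrArg (fun Q : Sylow 2 Γ => (Q : Subgroup Γ)) hPξ
    simpa [Sylow.pointwise_smul_def] using this
  have hξP : ∀ z ∈ (P : Subgroup Γ), ξ z ∈ (P : Subgroup Γ) := by
    intro z hz
    have : ξ' • z ∈ ξ' • (P : Subgroup Γ) := Subgroup.smul_mem_pointwise_smul _ _ _ hz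
    rwa [hPc] at this
  have hξP' : ∀ z ∈ (P : Subgroup Γ), ξ.symm z ∈ (P : Subgroup Γ) := by
    intro z hz
    have : ξ.symm z = ξ z := (MulEquiv.symm_apply_eq _).2 (hξ z).symm
    rw [this]
    exact hξP z hz
  let γ' : MulAut Γ := γ
  obtain ⟨w, hw⟩ := MulAction.exists_smul_eq Γ (γ' • P) P
  let φ' : MulAut Γ := MulAut.conj w * γ'
  have hPφ : φ' • P = P := by
    rw [mul_smul]
    exact hw
  have hPφc : φ' • (P : Subgroup Γ) = (P : Subgroup Γ) := by
    have := congrArg (fun Q : Sylow 2 Γ => (Q : Subgroup Γ)) hPφ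
    simpa [Sylow.pointwise_smul_def] using this
  have hφP : ∀ z ∈ (P : Subgroup Γ), φ' z ∈ (P : Subgroup Γ) := by
    intro z hz
    have : φ' • z ∈ φ' • (P : Subgroup Γ) := Subgroup.smul_mem_pointwise_smul _ _ _ hz
    rwa [hPφc] at this
  have hφP' : ∀ z ∈ (P : Subgroup Γ), MulEquiv.symm φ' z ∈ (P : Subgroup Γ) := by
    intro z hz
    have h1 : φ'⁻¹ • (P : Subgroup Γ) = (P : Subgroup Γ) := by
      rw [inv_smul_eq_iff, hPφc]
    have : φ'⁻¹ • z ∈ φ'⁻¹ • (P : Subgroup Γ) := Subgroup.smul_mem_pointwise_smul _ _ _ hz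
    rwa [h1] at this
  have hφz : ∀ z, φ' z = w * γ z * w⁻¹ := fun z => rfl
  have h2el : ∀ z ∈ (P : Subgroup Γ), ∃ k : ℕ, z ^ 2 ^ k = 1 := by
    intro z hz
    obtain ⟨k, hk⟩ := P.isPGroup' ⟨z, hz⟩
    exact ⟨k, congrArg Subtype.val hk⟩
  have hnotconj : ∀ y ∈ (P : Subgroup Γ), y ≠ 1 → ∀ c : Γ, φ' y ≠ c * y * c⁻¹ := by
    intro y hy hy1 c h
    apply hγ y hy1 (h2el y hy) (w⁻¹ * c)
    rw [hφz] at h
    have : γ y = w⁻¹ * (w * γ y * w⁻¹) * w := by group
    rw [this, h]
    group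
  -- `P` is nontrivial
  have hPcard : Nat.card (P : Subgroup Γ) ≠ 1 := by
    intro h
    obtain ⟨z, hz1, k, hk⟩ := hne
    have h1 : (P : Subgroup Γ).index = Nat.card Γ := by
      have := Subgroup.card_mul_index (P : Subgroup Γ)
      rwa [h, one_mul] at this
    have h2 := P.not_dvd_index
    rw [h1] at h2
    apply h2
    have h3 : orderOf z ∣ 2 ^ k := orderOf_dvd_of_pow_eq_one hk
    obtain ⟨j, -, hj⟩ := (Nat.dvd_prime_pow Nat.prime_two).1 h3
    have hj0 : j ≠ 0 := by
      rintro rfl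
      rw [pow_zero, orderOf_eq_one_iff] at hj
      exact hz1 hj
    calc 2 ∣ 2 ^ j := dvd_pow_self 2 hj0
      _ = orderOf z := hj.symm
      _ ∣ Nat.card Γ := orderOf_dvd_natCard z
  haveI : Nontrivial (P : Subgroup Γ) := by
    by_contra hcon
    rw [not_nontrivial_iff_subsingleton] at hcon
    exact hPcard (Nat.card_of_subsingleton (1 : (P : Subgroup Γ)))
  have hcard4 : Nat.card (P : Subgroup Γ) = 4 := by
    refine card_four P.isPGroup' (restrictEquiv ξ P hξP hξP') (restrictEquiv φ' P hφP hφP')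
      (fun z => Subtype.ext (hξ _)) ?_ ?_
    · intro z hz
      by_contra hz1
      have h1 : (z : Γ) ≠ 1 := fun h => hz1 (Subtype.ext h)
      have h2 : φ' (z : Γ) = z := congrArg Subtype.val hz
      apply hnotconj z z.2 h1 1
      rw [h2]
      group
    · intro z₁ z₂ h1 h2 h3 h4
      exact Subtype.ext (hC P hξP z₁ z₁.2 z₂ z₂.2 (congrArg Subtype.val h1)
        (congrArg Subtype.val h2) (fun h => h3 (Subtype.ext h)) (fun h => h4 (Subtype.ext h)))
  -- fusion is impossible
  have hN : Subgroup.normalizer (P : Set Γ) ≤ Subgroup.centralizer (P : Set Γ) := by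
    intro n hn
    rw [Subgroup.mem_centralizer_iff]
    intro z hz
    by_contra hzn
    have hz' : n * z * n⁻¹ ∈ (P : Subgroup Γ) := (Subgroup.mem_normalizer_iff.1 hn z).1 hz
    have hzz' : z ≠ n * z * n⁻¹ := by
      intro h
      apply hzn
      rw [eq_mul_inv_iff_mul_eq] at h
      exact h
    have hz1 : z ≠ 1 := by
      rintro rfl
      apply hzn
      simp
    have hz'1 : n * z * n⁻¹ ≠ 1 := by
      intro h
      apply hz1
      have : z = n⁻¹ * (n * z * n⁻¹) * n := by group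
      rw [this, h]
      group
    set z' := n * z * n⁻¹ with hz'def
    have hzn' : z = n⁻¹ * z' * n⁻¹⁻¹ := by rw [hz'def]; group
    have n1 : φ' z ≠ z := by
      have := hnotconj z hz hz1 1
      simpa using this
    have n2 : φ' z ≠ z' := hnotconj z hz hz1 n
    have n3 : φ' z' ≠ z' := by
      have := hnotconj z' hz' hz'1 1
      simpa using this
    have n4 : φ' z' ≠ z := by
      rw [hzn'] 
      exact hnotconj z' hz' hz'1 n⁻¹
    have n5 : φ' z ≠ φ' z' := fun h => hzz' (φ'.injective h)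
    have n6 : φ' z ≠ 1 := fun h => hz1 (φ'.injective (h.trans (map_one φ').symm))
    have n7 : φ' z' ≠ 1 := fun h => hz'1 (φ'.injective (h.trans (map_one φ').symm))
    haveI : Fintype (P : Subgroup Γ) := Fintype.ofFinite _
    let S : Finset (P : Subgroup Γ) :=
      {1, ⟨z, hz⟩, ⟨z', hz'⟩, ⟨φ' z, hφP z hz⟩, ⟨φ' z', hφP z' hz'⟩}
    have hS : S.card = 5 := by
      simp only [S]
      rw [Finset.card_insert_of_notMem, Finset.card_insert_of_notMem, Finset.card_insert_of_notMem,
        Finset.card_pair]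
      · intro h
        exact n5 (congrArg Subtype.val h)
      · simp only [Finset.mem_insert, Finset.mem_singleton, not_or, Subtype.mk.injEq]
        exact ⟨n2.symm, n3.symm⟩
      · simp only [Finset.mem_insert, Finset.mem_singleton, not_or, Subtype.mk.injEq]
        exact ⟨hzz', n1.symm, n4.symm⟩
      · simp only [Finset.mem_insert, Finset.mem_singleton, not_or]
        exact ⟨fun h => hz1 (congrArg Subtype.val h).symm,
          fun h => hz'1 (congrArg Subtype.val h).symm,
          fun h => n6 (congrArg Subtype.val h).symm, fun h => n7 (congrArg Subtype.val h).symm⟩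
    have h5 := Finset.card_le_univ S
    rw [hS, ← Nat.card_eq_fintype_card, hcard4] at h5
    omega
  refine ⟨(P : Subgroup Γ), MonoidHom.transferSylow P hN, hcard4, fun y hy => ?_⟩
  have hcompl := MonoidHom.ker_transferSylow_isComplement' P hN
  have h1 := hcompl.index_eq_card
  have h2 := P.not_dvd_index
  rw [h1] at h2
  have h3 : orderOf y ∣ Nat.card (MonoidHom.transferSylow P hN).ker :=
    Subgroup.orderOf_dvd_natCard _ hy
  have h4 : Odd (Nat.card (MonoidHom.transferSylow P hN).ker) := by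
    rw [← Nat.not_even_iff_odd, even_iff_two_dvd]
    exact h2
  exact Odd.of_dvd_nat h4 h3

end B

end Cfsg.Agent.Lib.FourOdd.GroupAB
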