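import Cfsg.Agent.Lib.FourOdd.Colour
import Cfsg.Agent.Lib.FourOdd.GroupAB

/-!
# The case `B2`: the group `C / ⟨u⟩`
-/

set_option autoImplicit false
set_option linter.unusedSectionVars false
set_option linter.style.haveILetI false

namespace Cfsg.Agent.Lib.FourOdd.Cent

open Equiv
open Cfsg.Agent.Lib.FourOdd.Basic Cfsg.Agent.Lib.FourOdd.Types Cfsg.Agent.Lib.FourOdd.Core
open Cfsg.Agent.Lib.FourOdd.TwoOrb Cfsg.Agent.Lib.FourOdd.Rho Cfsg.Agent.Lib.FourOdd.Col
open Cfsg.Agent.Lib.FourOdd.Colour Cfsg.Agent.Lib.FourOdd.GroupAB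

variable {α : Type*} [Fintype α] [DecidableEq α]

/-- `⟨u⟩` inside `C` -/
def Zz {G : Subgroup (Perm α)} {u : Perm α} (hu : u * u = 1) : Subgroup (Cc G u) where
  carrier := {y | (y : Perm α) = 1 ∨ (y : Perm α) = u}
  mul_mem' := by
    rintro x y hx hy
    change (x : Perm α) * y = 1 ∨ (x : Perm α) * y = u
    rcases hx with hx | hx <;> rcases hy with hy | hy <;> rw [hx, hy] <;> simp [hu]
  one_mem' := Or.inl rfl
  inv_mem' := by
    rintro x (hx | hx)
    · left
      simp [hx]
    · right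
      have : u⁻¹ = u := inv_eq_of_mul_eq_one_left hu
      simp [hx, this]

theorem mem_Zz {G : Subgroup (Perm α)} {u : Perm α} {hu : u * u = 1} {y : Cc G u} :
    y ∈ Zz hu ↔ (y : Perm α) = 1 ∨ (y : Perm α) = u := Iff.rfl

instance Zz_normal {G : Subgroup (Perm α)} {u : Perm α} (hu : u * u = 1) : (Zz (G := G) hu).Normal := by
  constructor
  rintro y (hy | hy) g
  · left
    simp [hy]
  · right
    have h1 := g.2.1.2
    change (g : Perm α) * y * (g : Perm α)⁻¹ = u
    rw [hy, h1]
    simp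

theorem conj_mem_Cc {G : Subgroup (Perm α)} {u g c : Perm α} (hg : g ∈ Dd G u) (hc : c ∈ Cc G u) :
    g * c * g⁻¹ ∈ Cc G u := by
  refine ⟨(Dd G u).mul_mem ((Dd G u).mul_mem hg hc.1) ((Dd G u).inv_mem hg), fun p hp => ?_⟩
  have h1 : u (g⁻¹ p) = g⁻¹ p := fx_inv (comm_inv hg.2) hp
  simp only [Perm.mul_apply]
  rw [hc.2 _ h1]
  simp

/-- conjugation automorphism of `C` -/
def conjC {G : Subgroup (Perm α)} {u g : Perm α} (hg : g ∈ Dd G u) : Cc G u ≃* Cc G u where
  toFun c := ⟨g * c * g⁻¹, conj_mem_Cc hg c.2⟩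
  invFun c := ⟨g⁻¹ * c * g⁻¹⁻¹, conj_mem_Cc ((Dd G u).inv_mem hg) c.2⟩
  left_inv c := Subtype.ext (by simp [mul_assoc])
  right_inv c := Subtype.ext (by simp [mul_assoc])
  map_mul' x y := Subtype.ext (by simp [mul_assoc])

theorem conjC_coe {G : Subgroup (Perm α)} {u g : Perm α} (hg : g ∈ Dd G u) (c : Cc G u) :
    (conjC hg c : Perm α) = g * c * g⁻¹ := rfl

theorem Zz_map {G : Subgroup (Perm α)} {u g : Perm α} (hu : u * u = 1) (hg : g ∈ Dd G u) :
    (Zz (G := G) hu).map (conjC hg).toMonoidHom = Zz hu := by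
  have hconj : g * u * g⁻¹ = u := by rw [hg.2]; simp
  have hconj' : g⁻¹ * u * g = u := by rw [comm_inv hg.2]; simp
  ext y
  simp only [Subgroup.mem_map]
  constructor
  · rintro ⟨z, hz | hz, rfl⟩
    · left
      change g * (z : Perm α) * g⁻¹ = 1
      rw [hz]
      simp
    · right
      change g * (z : Perm α) * g⁻¹ = u
      rw [hz, hconj]
  · intro hy
    refine ⟨(conjC hg).symm y, ?_, (conjC hg).apply_symm_apply y⟩
    rcases hy with hy | hy
    · left
      change g⁻¹ * (y : Perm α) * g⁻¹⁻¹ = 1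
      rw [hy]
      simp
    · right
      change g⁻¹ * (y : Perm α) * g⁻¹⁻¹ = u
      rw [hy, inv_inv, hconj']

/-- induced automorphism on `C / ⟨u⟩` -/
noncomputable def bar {G : Subgroup (Perm α)} {u g : Perm α} (hu : u * u = 1) (hg : g ∈ Dd G u) :
    (Cc G u ⧸ Zz (G := G) hu) ≃* (Cc G u ⧸ Zz (G := G) hu) :=
  QuotientGroup.congr _ _ (conjC hg) (Zz_map hu hg)

theorem bar_mk {G : Subgroup (Perm α)} {u g : Perm α} (hu : u * u = 1) (hg : g ∈ Dd G u)
    (c : Cc G u) : bar hu hg (c : Cc G u ⧸ Zz (G := G) hu) = ((conjC hg c : Cc G u) : Cc G u ⧸ Zz hu) :=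
  rfl

section
variable {G : Subgroup (Perm α)} (hG : Hyp G) (hf : ∀ u, Invol G u → (fx u).card = 3)
include hG hf

theorem lift_two {u : Perm α} (hu : u * u = 1) (y : Cc G u) {k : ℕ}
    (h : (y : Cc G u ⧸ Zz (G := G) hu) ^ 2 ^ k = 1) : (y : Perm α) ^ 2 ^ (k + 1) = 1 := by
  have h1 : ((y ^ 2 ^ k : Cc G u) : Cc G u ⧸ Zz (G := G) hu) = 1 := by
    rw [QuotientGroup.mk_pow]
    exact h
  rw [QuotientGroup.eq_one_iff] at h1
  have h2 : ((y : Perm α) ^ 2 ^ k) = 1 ∨ ((y : Perm α) ^ 2 ^ k) = u := by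
    rcases h1 with h | h
    · left
      simpa using h
    · right
      simpa using h
  rw [pow_succ 2 k, pow_mul]
  rcases h2 with h | h <;> rw [h]
  · simp
  · rw [pow_two]
    exact hu

/-- A 2-element of `C` in the kernel of the quotient on a cycle -/
theorem mk_eq_one {u : Perm α} (hu : Invol G u) (y : Cc G u) {k : ℕ}
    (h : (y : Perm α) ^ 2 ^ k = 1) {a : α} (ha : u a ≠ a)
    (hy : (y : Perm α) a = a ∨ (y : Perm α) a = u a) :
    (y : Cc G u ⧸ Zz (G := G) hu.2.1) = 1 := by
  rw [QuotientGroup.eq_one_iff]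
  exact two_el_cycle hG hf hu y.2 h ha hy

/-- The key bound. -/
theorem support_le_eight (hB : B2 G) {u : Perm α} (hu : Invol G u) {a c : α} (ha : u a ≠ a)
    (hc : u c ≠ c) (hca : c ≠ a) (hcb : c ≠ u a) (h3 : ¬ 3 ∣ u.support.card) :
    u.support.card ≤ 8 := by
  classical
  have huu := app_app hu.2.1
  have hu2 := hu.2.1
  -- the involution `x`
  obtain ⟨x, hxG, hx2, hxc, hxa, hxb, hxx, hxy⟩ := exists_s hG hu ha hc hca hcb
  have hxD : x ∈ Dd G u := ⟨hxG, hxc⟩
  have hx1 : x ≠ 1 := by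
    intro h
    rw [h] at hxx
    exact hc hxx.symm
  obtain ⟨ι, hι, hιa, hιb, hιall⟩ := third_fix hf ⟨hxG, hx2, hx1⟩ hxa hxb ha.symm
  have huι : u ι = ι := by
    rcases hιall (u ι) (by rw [comm_app hxc, hι]) with h | h | h
    · exfalso
      apply hιb
      have := congrArg u h
      rwa [huu] at this
    · exact absurd (u.injective h) hιa
    · exact h
  -- the involution `x u`
  have hxu1 : x * u ≠ 1 := by
    intro h
    have := congrArg (fun k : Perm α => k a) h
    simp only [Perm.mul_apply, hxb, Perm.one_apply] at this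
    exact ha this
  have hxuI : Invol G (x * u) := by
    refine ⟨G.mul_mem hxG hu.1, ?_, hxu1⟩
    calc x * u * (x * u) = x * (u * x) * u := by simp only [mul_assoc]
      _ = x * (x * u) * u := by rw [hxc]
      _ = (x * x) * (u * u) := by simp only [mul_assoc]
      _ = 1 := by rw [hx2, hu2, one_mul]
  obtain ⟨ι', hι', hι'a, hι'b, hι'all⟩ := third_fix hf hxuI (a := c) (b := u c)
    (by rw [Perm.mul_apply, hxy]) (by rw [Perm.mul_apply, huu, hxx]) hc.symm
  have hιι' : ι = ι' := by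
    rcases hι'all ι (by rw [Perm.mul_apply, huι, hι]) with h | h | h
    · exfalso
      rw [h] at huι
      exact hc huι
    · exfalso
      rw [h, huu] at huι
      exact hc huι.symm
    · exact h
  subst hιι'
  -- the 3-cycle
  obtain ⟨g, hgD, i₁, i₂, i₃, h1, h2, h3', h12, h13, h23, g1, g2, g3⟩ := exists_g3 hG hf hu ha
  -- elements of `C` fixing `ι`
  have hιmove : ∀ (z : Cc G u), (z : Perm α) a ≠ ι := by
    intro z h
    have h4 : (z : Perm α) ι = ι := z.2.2 ι huι
    have h5 : a = ι := (z : Perm α).injective (h.trans h4.symm)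
    rw [h5] at ha
    exact ha huι
  have hmove : ∀ (z : Cc G u) (k : ℕ), (z : Perm α) ^ 2 ^ k = 1 →
      (z : Cc G u ⧸ Zz (G := G) hu2) ≠ 1 →
      ∀ a', u a' ≠ a' → u ((z : Perm α) a') ≠ (z : Perm α) a' ∧ (z : Perm α) a' ≠ a' ∧
        (z : Perm α) a' ≠ u a' := by
    intro z k hk hz1 a' ha'
    refine ⟨?_, ?_, ?_⟩
    · rw [← comm_app z.2.1.2]
      exact fun h => ha' ((z : Perm α).injective h)
    · intro h
      exact hz1 (mk_eq_one hG hf hu z hk ha' (Or.inl h))
    · intro h
      exact hz1 (mk_eq_one hG hf hu z hk ha' (Or.inr h))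
  -- lifts of `ξ`-fixed elements
  have hfixed : ∀ (z : Cc G u) (k : ℕ), (z : Perm α) ^ 2 ^ k = 1 →
      (z : Cc G u ⧸ Zz (G := G) hu2) ≠ 1 →
      bar hu2 hxD (z : Cc G u ⧸ Zz (G := G) hu2) = (z : Cc G u ⧸ Zz (G := G) hu2) →
      (z : Perm α) a = c ∨ (z : Perm α) a = u c := by
    intro z k hk hz1 hz
    rw [bar_mk, eq_comm, QuotientGroup.eq] at hz
    have hz' : (z : Perm α)⁻¹ * (x * z * x⁻¹) = 1 ∨ (z : Perm α)⁻¹ * (x * z * x⁻¹) = u := hz
    have hmv := hmove z k hk hz1 a ha
    rcases hz' with hz' | hz'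
    · exfalso
      have e1 : x * (z : Perm α) * x⁻¹ = z := by
        rw [inv_mul_eq_one] at hz'
        exact hz'.symm
      have e2 : x * (z : Perm α) = z * x := by
        calc x * (z : Perm α) = (x * z * x⁻¹) * x := by simp
          _ = z * x := by rw [e1]
      have e3 : x ((z : Perm α) a) = (z : Perm α) a := by
        rw [comm_app e2, hxa]
      rcases hιall _ e3 with h | h | h
      · exact hmv.2.1 h
      · exact hmv.2.2 h
      · exact hιmove z h
    · have e1 : x * (z : Perm α) * x⁻¹ = z * u := by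
        rw [inv_mul_eq_iff_eq_mul] at hz'
        exact hz'
      have e2 : x * (z : Perm α) = z * u * x := by
        calc x * (z : Perm α) = (x * z * x⁻¹) * x := by simp
          _ = z * u * x := by rw [e1]
      have e3 : x ((z : Perm α) a) = u ((z : Perm α) a) := by
        have := congrArg (fun k : Perm α => k a) e2
        simp only [Perm.mul_apply, hxa] at this
        rw [this, comm_app z.2.1.2]
      have e4 : (x * u) ((z : Perm α) a) = (z : Perm α) a := by
        rw [Perm.mul_apply, comm_app hxc, e3, huu]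
      rcases hι'all _ e4 with h | h | h
      · exact Or.inl h
      · exact Or.inr h
      · exact absurd h (hιmove z)
  -- apply the abstract lemma
  obtain ⟨A, χ, hA4, hχ⟩ := exists_chi (bar hu2 hxD) (bar hu2 hgD)
    (by
      intro q
      obtain ⟨z, rfl⟩ := QuotientGroup.mk_surjective q
      rw [bar_mk, bar_mk]
      congr 1
      apply Subtype.ext
      change x * (x * (z : Perm α) * x⁻¹) * x⁻¹ = z
      have hxinv : x⁻¹ = x := inv_eq_of_mul_eq_one_left hx2
      rw [hxinv]
      calc x * (x * (z : Perm α) * x) * x = (x * x) * z * (x * x) := by simp only [mul_assoc]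
        _ = z := by rw [hx2]; simp)
    (by
      obtain ⟨κ, hκ, ⟨k, hk⟩, hκa⟩ := exists_kappa hG hf hu ha hc hca hcb
      refine ⟨((⟨κ, hκ⟩ : Cc G u) : Cc G u ⧸ Zz (G := G) hu2), ?_, k, ?_⟩
      · intro h
        rw [QuotientGroup.eq_one_iff] at h
        rcases h with h | h
        · have h' : κ = 1 := h
          rw [h'] at hκa
          exact hca hκa.symm
        · have h' : κ = u := h
          rw [h'] at hκa
          exact hcb hκa.symm
      · rw [← QuotientGroup.mk_pow]
        rw [QuotientGroup.eq_one_iff]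
        left
        exact hk)
    (by
      rintro q hq1 ⟨k, hk⟩ wb h
      obtain ⟨z, rfl⟩ := QuotientGroup.mk_surjective q
      obtain ⟨w, rfl⟩ := QuotientGroup.mk_surjective wb
      have hz2 := lift_two hG hf hu2 z hk
      have hmv := hmove z _ hz2 hq1
      rw [bar_mk] at h
      have h' : ((conjC hgD z : Cc G u) : Cc G u ⧸ Zz (G := G) hu2) =
          ((w * z * w⁻¹ : Cc G u) : Cc G u ⧸ Zz (G := G) hu2) := h
      rw [eq_comm, QuotientGroup.eq] at h'
      have h'' : ((w : Perm α) * z * (w : Perm α)⁻¹)⁻¹ * (g * z * g⁻¹) = 1 ∨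
          ((w : Perm α) * z * (w : Perm α)⁻¹)⁻¹ * (g * z * g⁻¹) = u := h'
      apply h3
      refine no_fusion hG hf hB hu hgD h1 h2 h3' h12 h13 h23 g1 g2 g3 z.2.1.1 z.2.1.2 hmv w.2.1 w.2.2
        ?_
      rcases h'' with h'' | h''
      · left
        rw [inv_mul_eq_one] at h''
        exact h''.symm
      · right
        rw [inv_mul_eq_iff_eq_mul] at h''
        exact h'')
    (by
      intro P hP q₁ hq₁ q₂ hq₂ hξ₁ hξ₂ hq₁1 hq₂1
      have h2el : ∀ q ∈ (P : Subgroup (Cc G u ⧸ Zz (G := G) hu2)), ∃ k : ℕ, q ^ 2 ^ k = 1 := by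
        intro q hq
        obtain ⟨k, hk⟩ := P.isPGroup' ⟨q, hq⟩
        exact ⟨k, congrArg Subtype.val hk⟩
      obtain ⟨z₁, rfl⟩ := QuotientGroup.mk_surjective q₁
      obtain ⟨z₂, rfl⟩ := QuotientGroup.mk_surjective q₂
      obtain ⟨k₁, hk₁⟩ := h2el _ hq₁
      obtain ⟨k₂, hk₂⟩ := h2el _ hq₂
      have hz₁ := hfixed z₁ _ (lift_two hG hf hu2 z₁ hk₁) hq₁1 hξ₁
      have hz₂ := hfixed z₂ _ (lift_two hG hf hu2 z₂ hk₂) hq₂1 hξ₂
      have hrP : ((z₁⁻¹ * z₂ : Cc G u) : Cc G u ⧸ Zz (G := G) hu2) ∈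
          (P : Subgroup (Cc G u ⧸ Zz (G := G) hu2)) := by
        rw [QuotientGroup.mk_mul, QuotientGroup.mk_inv]
        exact Subgroup.mul_mem _ (Subgroup.inv_mem _ hq₁) hq₂
      obtain ⟨k, hk⟩ := h2el _ hrP
      have hr2 := lift_two hG hf hu2 (z₁⁻¹ * z₂) hk
      have hcomm := z₁.2.1.2
      have hra : ((z₁⁻¹ * z₂ : Cc G u) : Perm α) a = a ∨ ((z₁⁻¹ * z₂ : Cc G u) : Perm α) a = u a := by
        have e : ((z₁⁻¹ * z₂ : Cc G u) : Perm α) a = (z₁ : Perm α)⁻¹ ((z₂ : Perm α) a) := rfl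
        rw [e]
        have ia : ∀ {p q}, (z₁ : Perm α) p = q → (z₁ : Perm α)⁻¹ q = p := by
          intro p q h
          rw [← h]
          simp
        have e1 : (z₁ : Perm α) (u a) = u ((z₁ : Perm α) a) := comm_app hcomm a
        rcases hz₁ with h₁ | h₁ <;> rcases hz₂ with h₂ | h₂
        · left
          rw [h₂, ia h₁]
        · right
          rw [h₂]
          apply ia
          rw [e1, h₁]
        · right
          rw [h₂]
          apply ia
          rw [e1, h₁, huu]
        · left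
          rw [h₂, ia h₁]
      have := mk_eq_one hG hf hu (z₁⁻¹ * z₂) hr2 ha hra
      rw [QuotientGroup.mk_mul, QuotientGroup.mk_inv, inv_mul_eq_one] at this
      exact this)
  -- the pigeonhole
  let χ' : Cc G u →* A := χ.comp (QuotientGroup.mk' (Zz (G := G) hu2))
  have hχ'4 : ∀ y : A, y ^ 4 = 1 := by
    intro y
    have h4 := pow_card_eq_one' (x := y)
    rwa [hA4] at h4
  -- the kernel of `χ'` preserves the cycle of `a`
  have hker : ∀ v : Cc G u, χ' v = 1 → (v : Perm α) a = a ∨ (v : Perm α) a = u a := by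
    intro v hv
    by_contra hcon
    push Not at hcon
    have hc' : u ((v : Perm α) a) ≠ (v : Perm α) a := by
      rw [← comm_app v.2.1.2]
      exact fun h => ha ((v : Perm α).injective h)
    obtain ⟨κ, hκ, ⟨k, hk⟩, hκa⟩ := exists_kappa hG hf hu ha hc' hcon.1 hcon.2
    -- `κ⁻¹ v` fixes `a`
    set κ' : Cc G u := ⟨κ, hκ⟩ with hκ'
    set r : Cc G u := κ'⁻¹ * v with hr
    have hra : (r : Perm α) a = a := by
      change κ⁻¹ ((v : Perm α) a) = a
      rw [← hκa]
      simp
    have hrodd : Odd (orderOf (r : Perm α)) := by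
      obtain ⟨i₁', i₂', i₃', h12', -, -, hT'⟩ := Finset.card_eq_three.1 (hf _ hu)
      have hi1 : i₁' ∈ fx u := by rw [hT']; simp
      have hi2 : i₂' ∈ fx u := by rw [hT']; simp
      rw [mem_fx] at hi1 hi2
      have ne1 : ∀ {p}, u p = p → a ≠ p := by
        rintro p hp rfl
        exact ha hp
      have ne2 : ∀ {p}, u p = p → u a ≠ p := by
        intro p hp h
        apply ha
        have := congrArg u h
        rw [huu, hp] at this
        rw [this]
        exact hp
      have fr : Fr a (u a) i₁' i₂' := ⟨ha.symm, ne1 hi1, ne1 hi2, ne2 hi1, ne2 hi2, h12'⟩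
      exact hG.odd r.2.1.1 fr hra (by rw [comm_app r.2.1.2, hra]) (r.2.2 _ hi1) (r.2.2 _ hi2)
    have hχr : χ' r = 1 := by
      have h1' : (χ' r) ^ orderOf (r : Perm α) = 1 := by
        rw [← map_pow]
        have : r ^ orderOf (r : Perm α) = 1 := by
          apply Subtype.ext
          exact pow_orderOf_eq_one (r : Perm α)
        rw [this, map_one]
      have h2' := orderOf_dvd_of_pow_eq_one h1'
      have h3'' := orderOf_dvd_of_pow_eq_one (hχ'4 (χ' r))
      have hcop : Nat.Coprime (orderOf (r : Perm α)) 4 :=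
        Nat.Coprime.symm (Nat.Coprime.pow_left 2 (Nat.coprime_two_left.2 hrodd) : Nat.Coprime (2 ^ 2) _)
      exact orderOf_eq_one_iff.1 (Nat.eq_one_of_dvd_coprimes hcop h2' h3'')
    have hχκ : χ' κ' = 1 := by
      have e : v = κ' * r := by rw [hr]; group
      rw [e, map_mul, hχr, mul_one] at hv
      exact hv
    have hodd := hχ ((κ' : Cc G u) : Cc G u ⧸ Zz (G := G) hu2) hχκ
    have hk' : ((κ' : Cc G u) : Cc G u ⧸ Zz (G := G) hu2) ^ 2 ^ k = 1 := by
      rw [← QuotientGroup.mk_pow, QuotientGroup.eq_one_iff]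
      left
      exact hk
    have hone : ((κ' : Cc G u) : Cc G u ⧸ Zz (G := G) hu2) = 1 := by
      have h1' := orderOf_dvd_of_pow_eq_one hk'
      have hcop : Nat.Coprime (orderOf ((κ' : Cc G u) : Cc G u ⧸ Zz (G := G) hu2)) (2 ^ k) :=
        Nat.Coprime.pow_right k (Nat.Coprime.symm (Nat.coprime_two_left.2 hodd))
      exact orderOf_eq_one_iff.1 (Nat.eq_one_of_dvd_coprimes hcop (dvd_refl _) h1')
    rw [QuotientGroup.eq_one_iff] at hone
    rcases hone with h | h
    · have h' : κ = 1 := h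
      rw [h'] at hκa
      exact hcon.1 hκa.symm
    · have h' : κ = u := h
      rw [h'] at hκa
      exact hcon.2 hκa.symm
  -- `C` is transitive on the moved points
  have htrans : ∀ p, ∃ y : Cc G u, u p ≠ p → (y : Perm α) a = p := by
    intro p
    by_cases hp : u p = p
    · exact ⟨1, fun h => absurd hp h⟩
    by_cases hpa : p = a
    · exact ⟨1, fun _ => hpa.symm⟩
    by_cases hpb : p = u a
    · refine ⟨⟨u, ⟨hu.1, rfl⟩, fun _ h => h⟩, fun _ => hpb.symm⟩
    obtain ⟨κ, hκ, -, hκa⟩ := exists_kappa hG hf hu ha hp hpa hpb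
    exact ⟨⟨κ, hκ⟩, fun _ => hκa⟩
  choose Y hY using htrans
  haveI : Fintype A := Fintype.ofFinite _
  have hfiber : ∀ b ∈ u.support.image (fun p => χ' (Y p)),
      (u.support.filter (fun p => χ' (Y p) = b)).card ≤ 2 := by
    intro b hb
    rw [Finset.mem_image] at hb
    obtain ⟨p, hp, hpb⟩ := hb
    rw [Perm.mem_support] at hp
    have hsub : u.support.filter (fun p => χ' (Y p) = b) ⊆ {p, u p} := by
      intro q hq
      rw [Finset.mem_filter, Perm.mem_support] at hq
      obtain ⟨hq1, hq2⟩ := hq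
      have hv : χ' ((Y p)⁻¹ * Y q) = 1 := by
        rw [map_mul, map_inv, hpb, hq2, inv_mul_cancel]
      have h5 := hker _ hv
      have e : (((Y p)⁻¹ * Y q : Cc G u) : Perm α) a = ((Y p) : Perm α)⁻¹ q := by
        change ((Y p) : Perm α)⁻¹ ((Y q : Perm α) a) = _
        rw [hY q hq1]
      rw [e] at h5
      simp only [Finset.mem_insert, Finset.mem_singleton]
      rcases h5 with h5 | h5
      · left
        have : q = (Y p : Perm α) (((Y p) : Perm α)⁻¹ q) := by simp
        rw [this, h5, hY p hp]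
      · right
        have : q = (Y p : Perm α) (((Y p) : Perm α)⁻¹ q) := by simp
        rw [this, h5, comm_app (Y p).2.1.2, hY p hp]
    refine (Finset.card_le_card hsub).trans ?_
    exact Finset.card_le_two
  have hbound := Finset.card_le_mul_card_image (s := u.support) (f := fun p => χ' (Y p)) 2 hfiber
  have himg : (u.support.image (fun p => χ' (Y p))).card ≤ 4 := by
    refine (Finset.card_le_univ _).trans ?_
    rw [← Nat.card_eq_fintype_card, hA4]
  omega

end

end Cfsg.Agent.Lib.FourOdd.Cent
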