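import Cfsg.Agent.Lib.FourOdd.Rho

/-!
# The case `B2`: fibres over `Sym(T)` and colours
-/

set_option autoImplicit false
set_option linter.unusedSectionVars false
set_option linter.style.haveILetI false

namespace Cfsg.Agent.Lib.FourOdd.Col

open Equiv
open Cfsg.Agent.Lib.FourOdd.Basic Cfsg.Agent.Lib.FourOdd.Types Cfsg.Agent.Lib.FourOdd.Core
open Cfsg.Agent.Lib.FourOdd.TwoOrb Cfsg.Agent.Lib.FourOdd.Rho

variable {α : Type*} [Fintype α] [DecidableEq α]

theorem third_eq {T : Type*} [Fintype T] [DecidableEq T] (h : Fintype.card T = 3) {i j k l : T}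
    (hij : i ≠ j) (hik : i ≠ k) (hjk : j ≠ k) (hli : l ≠ i) (hlj : l ≠ j) : l = k := by
  by_contra hlk
  have h1 : ({i, j, k, l} : Finset T).card = 4 := by
    rw [Finset.card_insert_of_notMem, Finset.card_insert_of_notMem, Finset.card_pair (Ne.symm hlk)]
    · simp only [Finset.mem_insert, Finset.mem_singleton, not_or]
      exact ⟨hjk, Ne.symm hlj⟩
    · simp only [Finset.mem_insert, Finset.mem_singleton, not_or]
      exact ⟨hij, hik, Ne.symm hli⟩
  have h2 := Finset.card_le_univ ({i, j, k, l} : Finset T)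
  omega

/-- the points moved by `u` other than `a, u a` -/
def Psi (u : Perm α) (a : α) : Finset α := Finset.univ.filter (fun y => u y ≠ y ∧ y ≠ a ∧ y ≠ u a)

theorem mem_Psi {u : Perm α} {a y : α} : y ∈ Psi u a ↔ u y ≠ y ∧ y ≠ a ∧ y ≠ u a := by
  simp [Psi]

theorem Psi_card {u : Perm α} (hu : u * u = 1) {a : α} (ha : u a ≠ a) :
    (Psi u a).card + 2 + (fx u).card = Fintype.card α := by
  have h1 : Psi u a = (u.support.erase a).erase (u a) := by
    ext y
    simp only [mem_Psi, Finset.mem_erase, Perm.mem_support]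
    tauto
  have h2 : u a ∈ u.support.erase a := by
    simp only [Finset.mem_erase, Perm.mem_support]
    refine ⟨ha, ?_⟩
    rw [app_app hu]
    exact ha.symm
  have h3 : a ∈ u.support := by
    simpa using ha
  have h4 : u.support.card + (fx u).card = Fintype.card α := by
    have : fx u = u.supportᶜ := by
      ext p
      simp [mem_fx]
    rw [this, Finset.card_add_card_compl]
  rw [h1, Finset.card_erase_of_mem h2, Finset.card_erase_of_mem h3]
  have h5 : 0 < (u.support.erase a).card := Finset.card_pos.2 ⟨_, h2⟩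
  rw [Finset.card_erase_of_mem h3] at h5
  omega

section
variable {G : Subgroup (Perm α)} (hG : Hyp G) (hf : ∀ u, Invol G u → (fx u).card = 3)
include hG hf

/-- every permutation of `T` lifts to the stabiliser of `a` in the centraliser -/
theorem rho_surj {u : Perm α} (hu : Invol G u) {a : α} (ha : u a ≠ a) (π : Perm {p // u p = p}) :
    ∃ (v : Perm α) (hv : v ∈ Dd G u), v a = a ∧ rho G u ⟨v, hv⟩ = π := by
  have hT : Fintype.card {p // u p = p} = 3 := by rw [card_T, hf _ hu]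
  refine Equiv.Perm.swap_induction_on π ⟨1, (Dd G u).one_mem, rfl, map_one _⟩ ?_
  rintro π i j hij ⟨v, hv, hva, hvπ⟩
  obtain ⟨s, hs, hs2, hsc, hsa, hsb, hsi, hsj⟩ :=
    exists_swap hG hu ha i.2 j.2 (fun h => hij (Subtype.ext h))
  have hsD : s ∈ Dd G u := ⟨hs, hsc⟩
  have ri : rho G u ⟨s, hsD⟩ i = j := Subtype.ext hsi
  have rj : rho G u ⟨s, hsD⟩ j = i := Subtype.ext hsj
  have hρ : rho G u ⟨s, hsD⟩ = swap i j := by
    ext1 k
    by_cases hki : k = i
    · rw [hki, ri, swap_apply_left]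
    · by_cases hkj : k = j
      · rw [hkj, rj, swap_apply_right]
      · rw [swap_apply_of_ne_of_ne hki hkj]
        refine third_eq hT hij (Ne.symm hki) (Ne.symm hkj) ?_ ?_
        · intro h
          apply hkj
          rw [← rj] at h
          exact (rho G u ⟨s, hsD⟩).injective h ▸ rfl
        · intro h
          apply hki
          rw [← ri] at h
          exact (rho G u ⟨s, hsD⟩).injective h ▸ rfl
  refine ⟨s * v, (Dd G u).mul_mem hsD hv, by rw [Perm.mul_apply, hva, hsa], ?_⟩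
  have e : (⟨s * v, (Dd G u).mul_mem hsD hv⟩ : Dd G u) = ⟨s, hsD⟩ * ⟨v, hv⟩ := rfl
  rw [e, map_mul, hρ, hvπ]

theorem rho_eq_of (hB : B2 G) {u : Perm α} (hu : Invol G u) {a x : α} (ha : u a ≠ a)
    (hx : u x ≠ x) (hxa : x ≠ a) (hxb : x ≠ u a) {v v' : Perm α} (hv : v ∈ Dd G u)
    (hv' : v' ∈ Dd G u) (h1 : v a = a) (h2 : v' a = a) (h3 : v x = v' x) :
    rho G u ⟨v, hv⟩ = rho G u ⟨v', hv'⟩ := by
  have hr := (Dd G u).mul_mem ((Dd G u).inv_mem hv) hv'
  have hfix := hB hu ha hx hxa hxb hr.1 hr.2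
    (by rw [Perm.mul_apply, h2, inv_fix h1])
    (by rw [Perm.mul_apply, ← h3]; simp)
  have : rho G u ⟨v⁻¹ * v', hr⟩ = 1 := rho_eq_one.2 hfix
  have e : (⟨v⁻¹ * v', hr⟩ : Dd G u) = ⟨v, hv⟩⁻¹ * ⟨v', hv'⟩ := rfl
  rw [e, map_mul, map_inv, inv_mul_eq_one] at this
  exact this

open Classical in
/-- The fibre count: `Ψ` is partitioned into six fibres of the same size. -/
theorem fibers (hB : B2 G) {u : Perm α} (hu : Invol G u) {a x₀ : α} (ha : u a ≠ a)
    (hx : u x₀ ≠ x₀) (hxa : x₀ ≠ a) (hxb : x₀ ≠ u a) :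
    ∃ F : Finset α, (Psi u a).card = 6 * F.card ∧ x₀ ∈ F ∧
      ∀ w ∈ Dd G u, w a = a → (∀ p, u p = p → w p = p) → w x₀ ∈ F := by
  have hT : Fintype.card {p // u p = p} = 3 := by rw [card_T, hf _ hu]
  let Rl : α → Perm {p // u p = p} → Prop :=
    fun y π => ∃ (v : Perm α) (hv : v ∈ Dd G u), v a = a ∧ v x₀ = y ∧ rho G u ⟨v, hv⟩ = π
  let Fb : Perm {p // u p = p} → Finset α := fun π => (Psi u a).filter (fun y => Rl y π)
  have hone : ∀ y ∈ Psi u a, ((Finset.univ : Finset (Perm {p // u p = p})).filter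
      (fun π => Rl y π)).card = 1 := by
    intro y hy
    rw [mem_Psi] at hy
    obtain ⟨v, hv, hv1, hv2, hv3⟩ := key_conj hG hu hu ha hx hxa hxb ha hy.1 hy.2.1 hy.2.2
    have hvD : v ∈ Dd G u := ⟨hv, hv1⟩
    rw [Finset.card_eq_one]
    refine ⟨rho G u ⟨v, hvD⟩, ?_⟩
    ext π
    simp only [Finset.mem_filter, Finset.mem_univ, true_and, Finset.mem_singleton]
    constructor
    · rintro ⟨v', hv', h1, h2, rfl⟩
      exact rho_eq_of hG hf hB hu ha hx hxa hxb hv' hvD h1 hv2 (h2.trans hv3.symm)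
    · rintro rfl
      exact ⟨v, hvD, hv2, hv3, rfl⟩
  have hPsi_inv : ∀ v ∈ Dd G u, v a = a → ∀ y ∈ Psi u a, v y ∈ Psi u a := by
    intro v hv hva y hy
    rw [mem_Psi] at hy ⊢
    refine ⟨?_, ?_, ?_⟩
    · rw [← comm_app hv.2]
      exact fun h => hy.1 (v.injective h)
    · intro h
      exact hy.2.1 (v.injective (h.trans hva.symm))
    · intro h
      apply hy.2.2
      apply v.injective
      rw [h, comm_app hv.2, hva]
  have hsame : ∀ π, (Fb π).card = (Fb 1).card := by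
    intro π
    obtain ⟨vπ, hvπ, hvπa, hvπρ⟩ := rho_surj hG hf hu ha π
    have hvπ' := (Dd G u).inv_mem hvπ
    apply le_antisymm
    · apply Finset.card_le_card_of_injOn (fun y => vπ⁻¹ y)
      · intro y hy
        rw [Finset.mem_coe, Finset.mem_filter] at hy ⊢
        obtain ⟨hy1, v, hv, hv1, hv2, hv3⟩ := hy
        refine ⟨hPsi_inv _ hvπ' (inv_fix hvπa) _ hy1, vπ⁻¹ * v, (Dd G u).mul_mem hvπ' hv, ?_, ?_, ?_⟩
        · rw [Perm.mul_apply, hv1, inv_fix hvπa]
        · rw [Perm.mul_apply, hv2]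
        · have e : (⟨vπ⁻¹ * v, (Dd G u).mul_mem hvπ' hv⟩ : Dd G u) = ⟨vπ, hvπ⟩⁻¹ * ⟨v, hv⟩ := rfl
          rw [e, map_mul, map_inv, hv3, hvπρ, inv_mul_cancel]
      · intro x _ y _ h
        exact vπ⁻¹.injective h
    · apply Finset.card_le_card_of_injOn (fun y => vπ y)
      · intro y hy
        rw [Finset.mem_coe, Finset.mem_filter] at hy ⊢
        obtain ⟨hy1, v, hv, hv1, hv2, hv3⟩ := hy
        refine ⟨hPsi_inv _ hvπ hvπa _ hy1, vπ * v, (Dd G u).mul_mem hvπ hv, ?_, ?_, ?_⟩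
        · rw [Perm.mul_apply, hv1, hvπa]
        · rw [Perm.mul_apply, hv2]
        · have e : (⟨vπ * v, (Dd G u).mul_mem hvπ hv⟩ : Dd G u) = ⟨vπ, hvπ⟩ * ⟨v, hv⟩ := rfl
          rw [e, map_mul, hv3, hvπρ, mul_one]
      · intro x _ y _ h
        exact vπ.injective h
  have hcount := Finset.sum_card_bipartiteAbove_eq_sum_card_bipartiteBelow
    (s := Psi u a) (t := (Finset.univ : Finset (Perm {p // u p = p}))) Rl
  simp only [Finset.bipartiteAbove, Finset.bipartiteBelow] at hcount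
  rw [Finset.sum_congr rfl hone, Finset.sum_congr rfl (fun π _ => hsame π)] at hcount
  simp only [Finset.sum_const, smul_eq_mul, mul_one, Finset.card_univ, Fintype.card_perm, hT] at hcount
  refine ⟨Fb 1, ?_, ?_, ?_⟩
  · rw [hcount]
    rfl
  · rw [Finset.mem_filter]
    refine ⟨mem_Psi.2 ⟨hx, hxa, hxb⟩, 1, (Dd G u).one_mem, rfl, rfl, map_one _⟩
  · intro w hw hwa hwT
    rw [Finset.mem_filter]
    exact ⟨hPsi_inv w hw hwa _ (mem_Psi.2 ⟨hx, hxa, hxb⟩), w, hw, hwa, rfl, rho_eq_one.2 hwT⟩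

/-- `6 ∣ n - 5`, and elements of `U` are trivial when `n = 11`. -/
theorem six_dvd (hB : B2 G) {u : Perm α} (hu : Invol G u) {a x₀ : α} (ha : u a ≠ a)
    (hx : u x₀ ≠ x₀) (hxa : x₀ ≠ a) (hxb : x₀ ≠ u a) : 6 ∣ (Psi u a).card := by
  obtain ⟨F, hF, -⟩ := fibers hG hf hB hu ha hx hxa hxb
  exact Dvd.intro _ hF.symm

theorem U_fix (hB : B2 G) (hn : Fintype.card α = 11) {u : Perm α} (hu : Invol G u) {a x₀ : α}
    (ha : u a ≠ a) (hx : u x₀ ≠ x₀) (hxa : x₀ ≠ a) (hxb : x₀ ≠ u a) {w : Perm α}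
    (hw : w ∈ Dd G u) (hwa : w a = a) (hwT : ∀ p, u p = p → w p = p) : w x₀ = x₀ := by
  obtain ⟨F, hF, h1, h2⟩ := fibers hG hf hB hu ha hx hxa hxb
  have h3 := Psi_card hu.2.1 ha
  rw [hf _ hu, hn] at h3
  have h4 : F.card = 1 := by omega
  obtain ⟨y, hy⟩ := Finset.card_eq_one.1 h4
  have h5 := h2 w hw hwa hwT
  rw [hy, Finset.mem_singleton] at h1 h5
  rw [h5, h1]

theorem U_triv (hB : B2 G) (hn : Fintype.card α = 11) {u : Perm α} (hu : Invol G u) {a : α}
    (ha : u a ≠ a) {w : Perm α} (hw : w ∈ Dd G u) (hwa : w a = a)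
    (hwT : ∀ p, u p = p → w p = p) : w = 1 := by
  ext p
  by_cases hp : u p = p
  · exact hwT p hp
  by_cases hpa : p = a
  · rw [hpa, hwa]
    rfl
  by_cases hpb : p = u a
  · rw [hpb, comm_app hw.2, hwa]
    rfl
  · exact U_fix hG hf hB hn hu ha hp hpa hpb hw hwa hwT

end

end Cfsg.Agent.Lib.FourOdd.Col
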