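import Cfsg.Agent.Lib.FourOdd.Col

/-!
# The case `B2`: colours, and `2`-elements of the kernel `C`
-/

set_option autoImplicit false
set_option linter.unusedSectionVars false
set_option linter.style.haveILetI false

namespace Cfsg.Agent.Lib.FourOdd.Colour

open Equiv
open Cfsg.Agent.Lib.FourOdd.Basic Cfsg.Agent.Lib.FourOdd.Types Cfsg.Agent.Lib.FourOdd.Core
open Cfsg.Agent.Lib.FourOdd.TwoOrb Cfsg.Agent.Lib.FourOdd.Rho Cfsg.Agent.Lib.FourOdd.Col

variable {α : Type*} [Fintype α] [DecidableEq α]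

/-- An involution with 3 fixed points: the third point. -/
theorem third_fix {G : Subgroup (Perm α)} (hf : ∀ u, Invol G u → (fx u).card = 3) {s : Perm α}
    (hs : Invol G s) {a b : α} (ha : s a = a) (hb : s b = b) (hab : a ≠ b) :
    ∃ i, s i = i ∧ i ≠ a ∧ i ≠ b ∧ ∀ p, s p = p → p = a ∨ p = b ∨ p = i := by
  have h1 : a ∈ fx s := mem_fx.2 ha
  have h2 : b ∈ (fx s).erase a := Finset.mem_erase.2 ⟨hab.symm, mem_fx.2 hb⟩
  have h3 : (((fx s).erase a).erase b).card = 1 := by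
    rw [Finset.card_erase_of_mem h2, Finset.card_erase_of_mem h1, hf _ hs]
  obtain ⟨i, hi⟩ := Finset.card_eq_one.1 h3
  have hi' : i ∈ ((fx s).erase a).erase b := by rw [hi]; simp
  simp only [Finset.mem_erase, mem_fx] at hi'
  refine ⟨i, hi'.2.2, hi'.2.1, hi'.1, fun p hp => ?_⟩
  by_cases hpa : p = a
  · exact Or.inl hpa
  by_cases hpb : p = b
  · exact Or.inr (Or.inl hpb)
  right; right
  have : p ∈ ((fx s).erase a).erase b := by
    simp only [Finset.mem_erase, mem_fx]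
    exact ⟨hpb, hpa, hp⟩
  rw [hi] at this
  simpa using this

/-- colour -/
def Colr (G : Subgroup (Perm α)) (u : Perm α) (a x i : α) : Prop :=
  ∃ y ∈ G, y * u = u * y ∧ y a = a ∧ y x = u x ∧ y i = i

theorem colr_conj {G : Subgroup (Perm α)} {u g : Perm α} (hg : g ∈ Dd G u) {a x i : α}
    (h : Colr G u a x i) : Colr G u (g a) (g x) (g i) := by
  obtain ⟨y, hy, h1, h2, h3, h4⟩ := h
  have hm := (Dd G u).mul_mem ((Dd G u).mul_mem hg (show y ∈ Dd G u from ⟨hy, h1⟩))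
    ((Dd G u).inv_mem hg)
  refine ⟨g * y * g⁻¹, hm.1, hm.2, ?_, ?_, ?_⟩
  · simp [h2]
  · simp [h3, comm_app hg.2]
  · simp [h4]

theorem colr_iff {G : Subgroup (Perm α)} {u g : Perm α} (hg : g ∈ Dd G u) {a x i : α} :
    Colr G u (g a) (g x) (g i) ↔ Colr G u a x i := by
  refine ⟨fun h => ?_, colr_conj hg⟩
  have := colr_conj ((Dd G u).inv_mem hg) h
  simpa using this

theorem colr_u {G : Subgroup (Perm α)} {u : Perm α} (hu : u * u = 1) {a x i : α} :
    Colr G u a (u x) i ↔ Colr G u a x i := by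
  have huu := app_app hu
  constructor
  · rintro ⟨y, hy, h1, h2, h3, h4⟩
    refine ⟨y, hy, h1, h2, ?_, h4⟩
    rw [huu, comm_app h1] at h3
    have := congrArg u h3
    rw [huu] at this
    exact this
  · rintro ⟨y, hy, h1, h2, h3, h4⟩
    refine ⟨y, hy, h1, h2, ?_, h4⟩
    rw [comm_app h1, h3]

section
variable {G : Subgroup (Perm α)} (hG : Hyp G) (hf : ∀ u, Invol G u → (fx u).card = 3)
include hG hf

theorem colr_exists {u : Perm α} (hu : Invol G u) {a x : α} (ha : u a ≠ a) (hx : u x ≠ x)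
    (hxa : x ≠ a) (hxb : x ≠ u a) : ∃ i, u i = i ∧ Colr G u a x i := by
  obtain ⟨s, hs, hs2, hsc, hsa, hsb, hsx, hsy⟩ := exists_s hG hu ha hx hxa hxb
  have hs1 : s ≠ 1 := by
    intro h
    rw [h] at hsx
    exact hx hsx.symm
  obtain ⟨i, hi, hia, hib, hall⟩ := third_fix hf ⟨hs, hs2, hs1⟩ hsa hsb ha.symm
  have huu := app_app hu.2.1
  refine ⟨i, ?_, s, hs, hsc, hsa, hsx, hi⟩
  rcases hall (u i) (by rw [comm_app hsc, hi]) with h | h | h
  · exfalso
    apply hib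
    have := congrArg u h
    rwa [huu] at this
  · exfalso
    exact hia (u.injective h)
  · exact h

theorem colr_unique (hB : B2 G) {u : Perm α} (hu : Invol G u) {a x : α} (ha : u a ≠ a)
    (hx : u x ≠ x) (hxa : x ≠ a) (hxb : x ≠ u a) {i i' : α} (hi : u i = i) (hi' : u i' = i')
    (h : Colr G u a x i) (h' : Colr G u a x i') : i = i' := by
  by_contra hne
  obtain ⟨y, hy, h1, h2, h3, h4⟩ := h
  obtain ⟨y', hy', h1', h2', h3', h4'⟩ := h'
  have hyD : y ∈ Dd G u := ⟨hy, h1⟩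
  have hyD' : y' ∈ Dd G u := ⟨hy', h1'⟩
  have hρ := rho_eq_of hG hf hB hu ha hx hxa hxb hyD hyD' h2 h2' (h3.trans h3'.symm)
  have h5 : y i' = i' := by
    have := congrArg (fun π : Perm {p // u p = p} => ((π ⟨i', hi'⟩ : {p // u p = p}) : α)) hρ
    simp only [rho_apply] at this
    rw [this, h4']
  have huu := app_app hu.2.1
  have ne1 : ∀ {p}, u p = p → a ≠ p := by
    rintro p hp rfl
    exact ha hp
  have ne2 : ∀ {p}, u p = p → u a ≠ p := by
    intro p hp h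
    apply ha
    have := congrArg u h
    rw [huu, hp] at this
    rw [this]
    exact hp
  have fr : Fr a (u a) i i' := ⟨ha.symm, ne1 hi, ne1 hi', ne2 hi, ne2 hi', hne⟩
  have hodd := hG.odd hy fr h2 (by rw [comm_app h1, h2]) h4 h5
  have := fix_of_odd hodd (p := x) (by rw [h3, comm_app h1, h3, huu])
  rw [h3] at this
  exact hx this

end

open Classical in
/-- colour count of `z` -/
noncomputable def Nn (G : Subgroup (Perm α)) (u z : Perm α) (i : α) : ℕ :=
  (u.support.filter (fun a => Colr G u a (z a) i)).card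

theorem Nn_conj {G : Subgroup (Perm α)} {u g : Perm α} (hg : g ∈ Dd G u) (z : Perm α) (i : α) :
    Nn G u (g * z * g⁻¹) (g i) = Nn G u z i := by
  classical
  unfold Nn
  symm
  apply Finset.card_bij (fun a _ => g a)
  · intro a ha
    rw [Finset.mem_filter, Perm.mem_support] at ha ⊢
    refine ⟨?_, ?_⟩
    · rw [← comm_app hg.2]
      exact fun h => ha.1 (g.injective h)
    · have : (g * z * g⁻¹) (g a) = g (z a) := by simp
      rw [this]
      exact colr_conj hg ha.2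
  · intro x _ y _ h
    exact g.injective h
  · intro b hb
    rw [Finset.mem_filter, Perm.mem_support] at hb
    refine ⟨g⁻¹ b, ?_, by simp⟩
    rw [Finset.mem_filter, Perm.mem_support]
    refine ⟨?_, ?_⟩
    · intro h
      apply hb.1
      have e : g⁻¹ * u = u * g⁻¹ := comm_inv hg.2
      have := comm_app e b
      rw [h] at this
      exact g⁻¹.injective this
    · rw [← colr_iff hg]
      have e : g (g⁻¹ b) = b := by simp
      have e2 : g (z (g⁻¹ b)) = (g * z * g⁻¹) b := by simp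
      rw [e, e2]
      exact hb.2

theorem Nn_u {G : Subgroup (Perm α)} {u z : Perm α} (hu : u * u = 1) (hz : z * u = u * z) (i : α) :
    Nn G u (z * u) i = Nn G u z i := by
  classical
  unfold Nn
  congr 1
  apply Finset.filter_congr
  intro a _
  rw [Perm.mul_apply, comm_app hz]
  exact colr_u hu

section
variable {G : Subgroup (Perm α)} (hG : Hyp G) (hf : ∀ u, Invol G u → (fx u).card = 3)
include hG hf

/-- the colour counts of a moving element add up to the number of moved points -/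
theorem sum_Nn (hB : B2 G) {u : Perm α} (hu : Invol G u) {z : Perm α}
    (hz : ∀ a, u a ≠ a → u (z a) ≠ z a ∧ z a ≠ a ∧ z a ≠ u a) :
    ∑ i ∈ fx u, Nn G u z i = u.support.card := by
  classical
  have hcount := Finset.sum_card_bipartiteAbove_eq_sum_card_bipartiteBelow
    (s := u.support) (t := fx u) (fun a i => Colr G u a (z a) i)
  simp only [Finset.bipartiteAbove, Finset.bipartiteBelow] at hcount
  have hone : ∀ a ∈ u.support, ((fx u).filter (fun i => Colr G u a (z a) i)).card = 1 := by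
    intro a ha
    rw [Perm.mem_support] at ha
    obtain ⟨h1, h2, h3⟩ := hz a ha
    obtain ⟨i, hi, hi'⟩ := colr_exists hG hf hu ha h1 h2 h3
    rw [Finset.card_eq_one]
    refine ⟨i, ?_⟩
    ext j
    simp only [Finset.mem_filter, mem_fx, Finset.mem_singleton]
    constructor
    · rintro ⟨hj, hj'⟩
      exact colr_unique hG hf hB hu ha h1 h2 h3 hj hi hj' hi'
    · rintro rfl
      exact ⟨hi, hi'⟩
  rw [Finset.sum_congr rfl hone] at hcount
  simp only [Finset.sum_const, smul_eq_mul, mul_one] at hcount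
  rw [hcount]
  rfl

/-- **No fusion**: a 3-cycle on `T` cannot map `z` to a `C`-conjugate of `z` or `z u`. -/
theorem no_fusion (hB : B2 G) {u : Perm α} (hu : Invol G u) {g : Perm α} (hg : g ∈ Dd G u)
    {i₁ i₂ i₃ : α} (h1 : u i₁ = i₁) (h2 : u i₂ = i₂) (h3 : u i₃ = i₃) (h12 : i₁ ≠ i₂)
    (h13 : i₁ ≠ i₃) (h23 : i₂ ≠ i₃) (g1 : g i₁ = i₂) (g2 : g i₂ = i₃) (g3 : g i₃ = i₁)
    {z w : Perm α} (hzG : z ∈ G) (hzu : z * u = u * z)
    (hz : ∀ a, u a ≠ a → u (z a) ≠ z a ∧ z a ≠ a ∧ z a ≠ u a)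
    (hw : w ∈ Dd G u) (hwT : ∀ p, u p = p → w p = p)
    (h : g * z * g⁻¹ = w * z * w⁻¹ ∨ g * z * g⁻¹ = w * z * w⁻¹ * u) :
    3 ∣ u.support.card := by
  have hT : fx u = {i₁, i₂, i₃} := by
    symm
    apply Finset.eq_of_subset_of_card_le
    · intro p hp
      simp only [Finset.mem_insert, Finset.mem_singleton] at hp
      rw [mem_fx]
      rcases hp with rfl | rfl | rfl <;> assumption
    · rw [hf _ hu, Finset.card_insert_of_notMem, Finset.card_pair h23]
      simp only [Finset.mem_insert, Finset.mem_singleton, not_or]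
      exact ⟨h12, h13⟩
  have key : ∀ i, u i = i → Nn G u z (g i) = Nn G u z i := by
    intro i hi
    have e1 : Nn G u (g * z * g⁻¹) (g i) = Nn G u z i := Nn_conj hg z i
    have e2 : Nn G u (w * z * w⁻¹) (w (g i)) = Nn G u z (g i) := Nn_conj hw z (g i)
    have e3 : w (g i) = g i := hwT _ (fx_inv hg.2 hi)
    rw [e3] at e2
    rcases h with h | h
    · rw [h, e2] at e1
      exact e1
    · have hcomm : w * z * w⁻¹ * u = u * (w * z * w⁻¹) :=
        ((Dd G u).mul_mem ((Dd G u).mul_mem hw (show z ∈ Dd G u from ⟨hzG, hzu⟩)) ((Dd G u).inv_mem hw)).2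
      rw [h, Nn_u hu.2.1 hcomm, e2] at e1
      exact e1
  have hsum := sum_Nn hG hf hB hu hz
  rw [hT, Finset.sum_insert (by
    simp only [Finset.mem_insert, Finset.mem_singleton, not_or]
    exact ⟨h12, h13⟩), Finset.sum_insert (by simpa using h23), Finset.sum_singleton] at hsum
  have e1 := key i₁ h1
  have e2 := key i₂ h2
  rw [g1] at e1
  rw [g2] at e2
  rw [← hsum, e2, e1]
  exact ⟨Nn G u z i₁, by ring⟩

/-- a 3-cycle on `T` -/
theorem exists_g3 {u : Perm α} (hu : Invol G u) {a : α} (ha : u a ≠ a) :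
    ∃ g ∈ Dd G u, ∃ i₁ i₂ i₃ : α, u i₁ = i₁ ∧ u i₂ = i₂ ∧ u i₃ = i₃ ∧ i₁ ≠ i₂ ∧ i₁ ≠ i₃ ∧ i₂ ≠ i₃ ∧
      g i₁ = i₂ ∧ g i₂ = i₃ ∧ g i₃ = i₁ := by
  obtain ⟨i₁, i₂, i₃, h12, h13, h23, hT⟩ := Finset.card_eq_three.1 (hf _ hu)
  have h1 : i₁ ∈ fx u := by rw [hT]; simp
  have h2 : i₂ ∈ fx u := by rw [hT]; simp
  have h3 : i₃ ∈ fx u := by rw [hT]; simp
  rw [mem_fx] at h1 h2 h3
  let I₁ : {p // u p = p} := ⟨i₁, h1⟩
  let I₂ : {p // u p = p} := ⟨i₂, h2⟩
  let I₃ : {p // u p = p} := ⟨i₃, h3⟩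
  have n12 : I₁ ≠ I₂ := fun h => h12 (congrArg Subtype.val h)
  have n13 : I₁ ≠ I₃ := fun h => h13 (congrArg Subtype.val h)
  have n23 : I₂ ≠ I₃ := fun h => h23 (congrArg Subtype.val h)
  obtain ⟨g, hg, -, hρ⟩ := rho_surj hG hf hu ha (swap I₁ I₂ * swap I₂ I₃)
  refine ⟨g, hg, i₁, i₂, i₃, h1, h2, h3, h12, h13, h23, ?_, ?_, ?_⟩
  · have : rho G u ⟨g, hg⟩ I₁ = I₂ := by
      rw [hρ, Perm.mul_apply, swap_apply_of_ne_of_ne n12 n13, swap_apply_left]
    exact congrArg Subtype.val this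
  · have : rho G u ⟨g, hg⟩ I₂ = I₃ := by
      rw [hρ, Perm.mul_apply, swap_apply_left, swap_apply_of_ne_of_ne n13.symm n23.symm]
    exact congrArg Subtype.val this
  · have : rho G u ⟨g, hg⟩ I₃ = I₁ := by
      rw [hρ, Perm.mul_apply, swap_apply_right, swap_apply_right]
    exact congrArg Subtype.val this

end

set_option maxRecDepth 100000 in
set_option synthInstance.maxSize 10000 in
set_option synthInstance.maxHeartbeats 0 in
theorem s3_mul_fin : ∀ π σ : Perm (Fin 3), π * π = 1 → σ * σ = 1 → π ≠ 1 → σ ≠ 1 →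
    (π * σ) * (π * σ) * (π * σ) = 1 := by
  decide

theorem s3_mul {T : Type*} [Fintype T] [DecidableEq T] (hT : Fintype.card T = 3)
    (π σ : Perm T) (h1 : π * π = 1) (h2 : σ * σ = 1) (h3 : π ≠ 1) (h4 : σ ≠ 1) :
    (π * σ) * (π * σ) * (π * σ) = 1 := by
  let e : T ≃ Fin 3 := Fintype.equivFinOfCardEq hT
  let φ : Perm T ≃* Perm (Fin 3) := e.permCongrHom
  have key := s3_mul_fin (φ π) (φ σ) (by rw [← map_mul, h1, map_one])
    (by rw [← map_mul, h2, map_one])
    (by rw [Ne, map_eq_one_iff φ φ.injective]; exact h3)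
    (by rw [Ne, map_eq_one_iff φ φ.injective]; exact h4)
  simp only [← map_mul] at key
  rw [map_eq_one_iff φ φ.injective] at key
  exact key

/-- the kernel of the action of the centraliser on `T` -/
def Cc (G : Subgroup (Perm α)) (u : Perm α) : Subgroup (Perm α) where
  carrier := {g | g ∈ Dd G u ∧ ∀ p, u p = p → g p = p}
  mul_mem' := by
    rintro x y ⟨hx, hx'⟩ ⟨hy, hy'⟩
    refine ⟨(Dd G u).mul_mem hx hy, fun p hp => ?_⟩
    rw [Perm.mul_apply, hy' p hp, hx' p hp]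
  one_mem' := ⟨(Dd G u).one_mem, fun _ _ => rfl⟩
  inv_mem' := by
    rintro x ⟨hx, hx'⟩
    exact ⟨(Dd G u).inv_mem hx, fun p hp => inv_fix (hx' p hp)⟩

theorem mem_Cc {G : Subgroup (Perm α)} {u g : Perm α} :
    g ∈ Cc G u ↔ g ∈ Dd G u ∧ ∀ p, u p = p → g p = p := Iff.rfl

section
variable {G : Subgroup (Perm α)} (hG : Hyp G) (hf : ∀ u, Invol G u → (fx u).card = 3)
include hG hf

/-- 2-elements of `C` preserving a cycle are in `⟨u⟩`. -/
theorem two_el_cycle {u : Perm α} (hu : Invol G u) {z : Perm α} (hz : z ∈ Cc G u) {k : ℕ}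
    (hk : z ^ 2 ^ k = 1) {a : α} (ha : u a ≠ a) (h : z a = a ∨ z a = u a) : z = 1 ∨ z = u := by
  have huu := app_app hu.2.1
  obtain ⟨i₁, i₂, i₃, h12, -, -, hT⟩ := Finset.card_eq_three.1 (hf _ hu)
  have h1 : i₁ ∈ fx u := by rw [hT]; simp
  have h2 : i₂ ∈ fx u := by rw [hT]; simp
  rw [mem_fx] at h1 h2
  have ne1 : ∀ {p}, u p = p → a ≠ p := by
    rintro p hp rfl
    exact ha hp
  have ne2 : ∀ {p}, u p = p → u a ≠ p := by
    intro p hp h
    apply ha
    have := congrArg u h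
    rw [huu, hp] at this
    rw [this]
    exact hp
  have fr : Fr a (u a) i₁ i₂ := ⟨ha.symm, ne1 h1, ne1 h2, ne2 h1, ne2 h2, h12⟩
  have hzc := hz.1.2
  rcases h with h | h
  · left
    exact two_el_trivial hG hz.1.1 hk fr h (by rw [comm_app hzc, h]) (hz.2 _ h1) (hz.2 _ h2)
  · right
    have hzu : Commute z u := hzc
    have hr : (z * u) ^ 2 ^ (k + 1) = 1 := by
      rw [hzu.mul_pow, pow_succ 2 k, pow_mul, hk, one_pow, one_mul, mul_comm, pow_mul, pow_two,
        hu.2.1, one_pow]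
    have hrG : z * u ∈ G := G.mul_mem hz.1.1 hu.1
    have r1 : (z * u) a = a := by rw [Perm.mul_apply, comm_app hzc, h, huu]
    have r2 : (z * u) (u a) = u a := by rw [Perm.mul_apply, huu, h]
    have r3 : ∀ p, u p = p → (z * u) p = p := by
      intro p hp
      rw [Perm.mul_apply, hp, hz.2 p hp]
    have := two_el_trivial hG hrG hr fr r1 r2 (r3 _ h1) (r3 _ h2)
    have hinv : u⁻¹ = u := inv_eq_of_mul_eq_one_left hu.2.1
    rw [mul_eq_one_iff_eq_inv, hinv] at this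
    exact this

/-- 2-elements of `C` move each point of `Δ` to `c` for any `c` in another cycle. -/
theorem exists_kappa {u : Perm α} (hu : Invol G u) {a c : α} (ha : u a ≠ a) (hc : u c ≠ c)
    (hca : c ≠ a) (hcb : c ≠ u a) :
    ∃ κ ∈ Cc G u, (∃ k : ℕ, κ ^ 2 ^ k = 1) ∧ κ a = c := by
  have huu := app_app hu.2.1
  have hT : Fintype.card {p // u p = p} = 3 := by rw [card_T, hf _ hu]
  have hac : a ≠ u c := by
    intro h
    apply hcb
    rw [h, huu]
  obtain ⟨y₀, hy₀, hy₀c, h1, h2⟩ := key_conj hG hu hu ha hc hca hcb hc ha hca.symm hac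
  have fr := fr_of hu.2.1 ha hc hca hcb
  have h3 : y₀ (u a) = u c := by rw [comm_app hy₀c, h1]
  have h4 : y₀ (u c) = u a := by rw [comm_app hy₀c, h2]
  obtain ⟨m, hm1, hm2⟩ := lift_inv hG hy₀ fr (by rw [h1, h2]) (by rw [h3, h4]) (by rw [h2, h1])
    (by rw [h4, h3])
  have hcm : Commute y₀ u := hy₀c
  set y₁ := y₀ ^ m with hy₁
  have hy₁D : y₁ ∈ Dd G u := ⟨G.pow_mem hy₀ m, (hcm.pow_left m)⟩
  have y1a : y₁ a = c := by rw [hm2 a (by rw [h1, h2]), h1]
  have y1c : y₁ c = a := by rw [hm2 c (by rw [h2, h1]), h2]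
  obtain ⟨s, hs, hs2, hsc, hsa, hsb, hsx, hsy⟩ := exists_s hG hu ha hc hca hcb
  have hsD : s ∈ Dd G u := ⟨hs, hsc⟩
  have hs1 : s ≠ 1 := by
    intro h
    rw [h] at hsx
    exact hc hsx.symm
  have hρs := rho_s_ne hG hf hu ha hsD hs2 hs1 hsa
  by_cases hρ1 : rho G u ⟨y₁, hy₁D⟩ = 1
  · refine ⟨y₁, ⟨hy₁D, rho_eq_one.1 hρ1⟩, ⟨1, ?_⟩, y1a⟩
    rw [pow_one, pow_two]
    exact hm1
  · have hy₂D := (Dd G u).mul_mem hy₁D hsD
    set y₂ := y₁ * s with hy₂
    have e : (⟨y₂, hy₂D⟩ : Dd G u) = ⟨y₁, hy₁D⟩ * ⟨s, hsD⟩ := rfl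
    have hc3 : (rho G u ⟨y₂, hy₂D⟩) * (rho G u ⟨y₂, hy₂D⟩) * (rho G u ⟨y₂, hy₂D⟩) = 1 := by
      rw [e, map_mul]
      apply s3_mul hT _ _ _ _ hρ1 hρs
      · rw [← map_mul]
        have e' : (⟨y₁, hy₁D⟩ : Dd G u) * ⟨y₁, hy₁D⟩ = 1 := Subtype.ext hm1
        rw [e', map_one]
      · rw [← map_mul]
        have e' : (⟨s, hsD⟩ : Dd G u) * ⟨s, hsD⟩ = 1 := Subtype.ext hs2
        rw [e', map_one]
    obtain ⟨k, o, hk, ho⟩ := Nat.exists_eq_pow_mul_and_not_dvd (orderOf_pos y₂).ne' 2 (by norm_num)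
    have hoodd : o % 2 = 1 := by omega
    have hoo : o * o % 4 = 1 := by
      have : o % 4 = 1 ∨ o % 4 = 3 := by omega
      rcases this with h | h <;> simp [Nat.mul_mod, h]
    obtain ⟨j, hj⟩ : ∃ j, o * o = 4 * j + 1 := ⟨o * o / 4, by omega⟩
    refine ⟨y₂ ^ (o * o), ?_, ⟨k, ?_⟩, ?_⟩
    · refine ⟨(Dd G u).pow_mem hy₂D _, ?_⟩
      -- the action on `T` is trivial
      have hpow : (⟨y₂ ^ (o * o), (Dd G u).pow_mem hy₂D _⟩ : Dd G u) = ⟨y₂, hy₂D⟩ ^ (o * o) := rfl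
      set π := rho G u ⟨y₂ ^ (o * o), (Dd G u).pow_mem hy₂D _⟩ with hπ
      have hπ1 : π ^ 2 ^ k = 1 := by
        rw [hπ, ← map_pow]
        have : (⟨y₂ ^ (o * o), (Dd G u).pow_mem hy₂D _⟩ : Dd G u) ^ 2 ^ k = 1 := by
          apply Subtype.ext
          change (y₂ ^ (o * o)) ^ 2 ^ k = 1
          rw [← pow_mul]
          have : o * o * 2 ^ k = (2 ^ k * o) * o := by ring
          rw [this, ← ho, pow_mul, pow_orderOf_eq_one, one_pow]
        rw [this, map_one]
      have hπ3 : π ^ 3 = 1 := by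
        rw [hπ, hpow, map_pow, ← pow_mul, mul_comm, pow_mul]
        have : (rho G u ⟨y₂, hy₂D⟩) ^ 3 = 1 := by
          rw [pow_succ, pow_two]
          exact hc3
        rw [this, one_pow]
      have hord1 : orderOf π ∣ 2 ^ k := orderOf_dvd_of_pow_eq_one hπ1
      have hord3 : orderOf π ∣ 3 := orderOf_dvd_of_pow_eq_one hπ3
      have hcop : Nat.Coprime (2 ^ k) 3 := Nat.Coprime.pow_left k (by norm_num)
      have : orderOf π = 1 := Nat.eq_one_of_dvd_coprimes hcop hord1 hord3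
      exact rho_eq_one.1 (orderOf_eq_one_iff.1 this)
    · rw [← pow_mul]
      have : o * o * 2 ^ k = (2 ^ k * o) * o := by ring
      rw [this, ← ho, pow_mul, pow_orderOf_eq_one, one_pow]
    · have a1 : y₂ a = c := by rw [hy₂, Perm.mul_apply, hsa, y1a]
      have a2 : y₂ c = u a := by rw [hy₂, Perm.mul_apply, hsx, comm_app hy₁D.2, y1c]
      have a3 : y₂ (u a) = u c := by rw [hy₂, Perm.mul_apply, hsb, comm_app hy₁D.2, y1a]
      have a4 : y₂ (u c) = a := by rw [hy₂, Perm.mul_apply, hsy, y1c]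
      have h4' : (y₂ ^ 4) a = a := by
        simp only [pow_succ, pow_zero, one_mul, Perm.mul_apply]
        rw [a1, a2, a3, a4]
      have h5 : y₂ ^ (4 * j + 1) = y₂ * (y₂ ^ 4) ^ j := by
        rw [pow_succ', pow_mul]
      rw [hj, h5, Perm.mul_apply, pow_fix h4', a1]

end

end Cfsg.Agent.Lib.FourOdd.Colour
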