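import Cfsg.Agent.Lib.FourOdd.Types

/-!
# Common lemmas when all involutions fix the same number of points
-/

set_option autoImplicit false
set_option linter.unusedSectionVars false
set_option linter.style.haveILetI false

namespace Cfsg.Agent.Lib.FourOdd.Core

open Equiv
open Cfsg.Agent.Lib.FourOdd.Basic Cfsg.Agent.Lib.FourOdd.Types

variable {α : Type*} [Fintype α] [DecidableEq α]

/-- pointwise stabiliser in `G` of a finite set -/
def Pw (G : Subgroup (Perm α)) (S : Finset α) : Subgroup (Perm α) where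
  carrier := {g | g ∈ G ∧ ∀ p ∈ S, g p = p}
  mul_mem' := by
    rintro x y ⟨hx, hx'⟩ ⟨hy, hy'⟩
    refine ⟨G.mul_mem hx hy, fun p hp => ?_⟩
    rw [Perm.mul_apply, hy' p hp, hx' p hp]
  one_mem' := ⟨G.one_mem, fun _ _ => rfl⟩
  inv_mem' := by
    rintro x ⟨hx, hx'⟩
    refine ⟨G.inv_mem hx, fun p hp => ?_⟩
    conv_lhs => rw [← hx' p hp]
    simp

theorem mem_Pw {G : Subgroup (Perm α)} {S : Finset α} {g : Perm α} :
    g ∈ Pw G S ↔ g ∈ G ∧ ∀ p ∈ S, g p = p := Iff.rfl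

theorem inv_fix {k : Perm α} {p : α} (h : k p = p) : k⁻¹ p = p := by
  conv_lhs => rw [← h]
  simp

theorem fr_of {v : Perm α} {p q : α} (hv : v * v = 1) (hp : v p ≠ p) (hq : v q ≠ q) (h1 : q ≠ p)
    (h2 : q ≠ v p) : Fr p (v p) q (v q) := by
  have hvv := app_app hv
  refine ⟨hp.symm, h1.symm, ?_, h2.symm, ?_, hq.symm⟩
  · intro h
    apply h2
    rw [h, hvv]
  · intro h
    apply h1
    have := congrArg v h
    rwa [hvv, hvv, eq_comm] at this

theorem comm_app {g u : Perm α} (h : g * u = u * g) (p : α) : g (u p) = u (g p) := by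
  have := congrArg (fun k : Perm α => k p) h
  simpa using this

theorem fx_inv {g u : Perm α} (h : g * u = u * g) {p : α} (hp : u p = p) : u (g p) = g p := by
  rw [← comm_app h, hp]

theorem comm_inv {g u : Perm α} (h : g * u = u * g) : g⁻¹ * u = u * g⁻¹ := by
  rw [inv_mul_eq_iff_eq_mul, ← mul_assoc, h, mul_assoc, mul_inv_cancel, mul_one]

section
variable {G : Subgroup (Perm α)} (hG : Hyp G)
include hG

theorem invol_no_four {u : Perm α} (hu : Invol G u) {a b c d : α} (fr : Fr a b c d)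
    (ha : u a = a) (hb : u b = b) (hc : u c = c) (hd : u d = d) : False := by
  have h1 := hG.odd hu.1 fr ha hb hc hd
  have h2 : orderOf u = 2 := orderOf_eq_prime (by rw [pow_two]; exact hu.2.1) hu.2.2
  rw [h2] at h1
  exact absurd h1 (by decide)

theorem odd_Pw {S : Finset α} (hS : 4 ≤ S.card) {k : Perm α} (hk : k ∈ Pw G S) :
    Odd (orderOf k) := by
  obtain ⟨a, b, c, d, fr, ha, hb, hc, hd⟩ := exists_fr S hS
  exact hG.odd hk.1 fr (hk.2 a ha) (hk.2 b hb) (hk.2 c hc) (hk.2 d hd)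

/-- involution of the centraliser acting as a transposition on a cycle, fixing another cycle -/
theorem exists_s {u : Perm α} (hu : Invol G u) {a x : α} (ha : u a ≠ a) (hx : u x ≠ x)
    (hxa : x ≠ a) (hxb : x ≠ u a) :
    ∃ s ∈ G, s * s = 1 ∧ s * u = u * s ∧ s a = a ∧ s (u a) = u a ∧ s x = u x ∧ s (u x) = x := by
  have fr := fr_of hu.2.1 ha hx hxa hxb
  have huu := app_app hu.2.1
  obtain ⟨g, hg, h1, h2, h3, h4⟩ := hG.trans fr (Fr.swap34 fr)
  obtain ⟨m, hm1, hm2⟩ := lift_inv hG hg fr (by rw [h1, h1]) (by rw [h2, h2]) (by rw [h3, h4])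
    (by rw [h4, h3])
  have sa : (g ^ m) a = a := by rw [hm2 a (by rw [h1, h1]), h1]
  have sb : (g ^ m) (u a) = u a := by rw [hm2 _ (by rw [h2, h2]), h2]
  have sc : (g ^ m) x = u x := by rw [hm2 x (by rw [h3, h4]), h3]
  have sd : (g ^ m) (u x) = x := by rw [hm2 _ (by rw [h4, h3]), h4]
  obtain ⟨s, hs, h22, hc, hagree⟩ := comm_of hG (G.pow_mem hg m) hu.1 hm1 hu.2.1 fr
    (by rw [sa, sb, huu]) (by rw [sb, huu, sa]) (by rw [sc, huu, sc, huu]) (by rw [sd, sd])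
  refine ⟨s, hs, h22, hc, ?_, ?_, ?_, ?_⟩
  · rw [hagree a (by rw [sa, sb, huu]), sa]
  · rw [hagree _ (by rw [sb, huu, sa]), sb]
  · rw [hagree x (by rw [sc, huu, sc, huu]), sc]
  · rw [hagree _ (by rw [sd, sd]), sd]

/-- involution of the centraliser swapping two fixed points of `u` and fixing a cycle -/
theorem exists_swap {u : Perm α} (hu : Invol G u) {a i j : α} (ha : u a ≠ a) (hi : u i = i)
    (hj : u j = j) (hij : i ≠ j) :
    ∃ s ∈ G, s * s = 1 ∧ s * u = u * s ∧ s a = a ∧ s (u a) = u a ∧ s i = j ∧ s j = i := by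
  have huu := app_app hu.2.1
  have ne1 : ∀ {p}, u p = p → a ≠ p := by
    rintro p hp rfl
    exact ha hp
  have ne2 : ∀ {p}, u p = p → u a ≠ p := by
    intro p hp h
    apply ha
    have := congrArg u h
    rw [huu, hp] at this
    rw [this]
    exact hp
  have fr : Fr a (u a) i j := ⟨ha.symm, ne1 hi, ne1 hj, ne2 hi, ne2 hj, hij⟩
  obtain ⟨g, hg, h1, h2, h3, h4⟩ := hG.trans fr (Fr.swap34 fr)
  obtain ⟨m, hm1, hm2⟩ := lift_inv hG hg fr (by rw [h1, h1]) (by rw [h2, h2]) (by rw [h3, h4])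
    (by rw [h4, h3])
  have sa : (g ^ m) a = a := by rw [hm2 a (by rw [h1, h1]), h1]
  have sb : (g ^ m) (u a) = u a := by rw [hm2 _ (by rw [h2, h2]), h2]
  have sc : (g ^ m) i = j := by rw [hm2 i (by rw [h3, h4]), h3]
  have sd : (g ^ m) j = i := by rw [hm2 _ (by rw [h4, h3]), h4]
  obtain ⟨s, hs, h22, hc, hagree⟩ := comm_of hG (G.pow_mem hg m) hu.1 hm1 hu.2.1 fr
    (by rw [sa, sb, huu]) (by rw [sb, huu, sa]) (by rw [sc, hj, sd, hi]) (by rw [sd, hi, sc, hj])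
  refine ⟨s, hs, h22, hc, ?_, ?_, ?_, ?_⟩
  · rw [hagree a (by rw [sa, sb, huu]), sa]
  · rw [hagree _ (by rw [sb, huu, sa]), sb]
  · rw [hagree i (by rw [sc, hj, sd, hi]), sc]
  · rw [hagree _ (by rw [sd, hi, sc, hj]), sd]

/-- odd square root -/
theorem exists_sqrt {w t : Perm α} (hw : Odd (orderOf w)) (t2 : t * t = 1)
    (htw : t * w * t = w⁻¹) : ∃ m : ℕ, (w ^ m) * (w ^ m) = w ∧ t * (w ^ m) * t = (w ^ m)⁻¹ := by
  obtain ⟨k, hk⟩ := hw
  have h1 : w ^ (2 * k + 1) = 1 := by rw [← hk]; exact pow_orderOf_eq_one _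
  have htinv : t⁻¹ = t := inv_eq_of_mul_eq_one_left t2
  refine ⟨k + 1, ?_, ?_⟩
  · rw [← pow_add]
    have : k + 1 + (k + 1) = (2 * k + 1) + 1 := by ring
    rw [this, pow_succ, h1, one_mul]
  · have h3 : (t * w * t⁻¹) ^ (k + 1) = t * w ^ (k + 1) * t⁻¹ := conj_pow
    rw [htinv, htw, inv_pow] at h3
    exact h3.symm

end

/-- The configuration: a frame with two commuting involutions. -/
structure Conf (G : Subgroup (Perm α)) (a b c d : α) (t₁ t₂ : Perm α) : Prop where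
  fr : Fr a b c d
  h₁ : Invol G t₁
  h₂ : Invol G t₂
  comm : t₁ * t₂ = t₂ * t₁
  t1a : t₁ a = b
  t1b : t₁ b = a
  t1c : t₁ c = c
  t1d : t₁ d = d
  t2a : t₂ a = a
  t2b : t₂ b = b
  t2c : t₂ c = d
  t2d : t₂ d = c

theorem Conf.symm {G : Subgroup (Perm α)} {a b c d : α} {t₁ t₂ : Perm α}
    (h : Conf G a b c d t₁ t₂) : Conf G c d a b t₂ t₁ :=
  ⟨Fr.swap13 h.fr, h.h₂, h.h₁, h.comm.symm, h.t2c, h.t2d, h.t2a, h.t2b, h.t1c, h.t1d, h.t1a, h.t1b⟩

theorem exists_conf {G : Subgroup (Perm α)} (hG : Hyp G) {a b c d : α} (fr : Fr a b c d) :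
    ∃ t₁ t₂, Conf G a b c d t₁ t₂ := by
  obtain ⟨t₁, t₂, h₁, h₂, hc, h1, h2, h3, h4, h5, h6, h7, h8⟩ := exists_pair hG fr
  exact ⟨t₁, t₂, fr, h₁, h₂, hc, h1, h2, h3, h4, h5, h6, h7, h8⟩

/-- involutions have at most `f` fixed points, elements with more have odd order -/
theorem odd_of_fix_gt {G : Subgroup (Perm α)} {f : ℕ}
    (hf : ∀ u, Invol G u → (fx u).card = f) {g : Perm α} (hg : g ∈ G)
    (h : f < (fx g).card) : Odd (orderOf g) := by
  by_contra hodd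
  rw [Nat.not_odd_iff_even] at hodd
  obtain ⟨k, hk⟩ := hodd
  have hpos : 0 < orderOf g := orderOf_pos g
  have h2 : (g ^ k) * (g ^ k) = 1 := by
    rw [← pow_add, ← hk, pow_orderOf_eq_one]
  have h3 : g ^ k ≠ 1 := pow_ne_one_of_lt_orderOf (by omega) (by omega)
  have h4 := hf _ ⟨G.pow_mem hg k, h2, h3⟩
  have h5 : fx g ⊆ fx (g ^ k) := by
    intro p hp
    rw [mem_fx] at hp ⊢
    exact pow_fix hp k
  have := Finset.card_le_card h5
  omega

end Cfsg.Agent.Lib.FourOdd.Core
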