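import Cfsg.Agent.Lib.FourOdd.TwoOrb

/-!
# End of the two-orbit case: the degree is `f + 4`.
-/

set_option autoImplicit false
set_option linter.unusedSectionVars false
set_option linter.style.haveILetI false

namespace Cfsg.Agent.Lib.FourOdd.TwoEnd

open Equiv
open Cfsg.Agent.Lib.FourOdd.Basic Cfsg.Agent.Lib.FourOdd.Types Cfsg.Agent.Lib.FourOdd.Core
open Cfsg.Agent.Lib.FourOdd.TwoOrb Cfsg.Agent.Lib.FourOdd.Tournament

variable {α : Type*} [Fintype α] [DecidableEq α]

section
variable {G : Subgroup (Perm α)} (hG : Hyp G) {a b c d f₁ : α} {t₁ t₂ : Perm α}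
  (hT : Two G a b c d t₁ t₂ f₁) {f : ℕ} (hf : ∀ u, Invol G u → (fx u).card = f)
include hG hT hf

theorem t1f_notMem : t₁ f₁ ∉ Ss t₁ t₂ := by
  intro h
  have := Ss_inv₁ hG hT.conf h
  rw [app_app hT.conf.h₁.2.1] at this
  exact hT.f1S this

theorem two_tour {Z : Finset α} {y₀ : α} (hSZ : Ss t₁ t₂ = insert y₀ Z) (hy : y₀ ∉ Z)
    (hfZ : f < Z.card) (htr : ∀ p, p ∉ Z → ∃ h ∈ Pw G Z, h y₀ = p) :
    ∀ k ∈ Pw G (Ss t₁ t₂), k f₁ = f₁ := by
  have hsub : Z ⊆ Ss t₁ t₂ := by rw [hSZ]; exact Finset.subset_insert _ _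
  have hy₀S : y₀ ∈ Ss t₁ t₂ := by rw [hSZ]; exact Finset.mem_insert_self _ _
  have h1u := app_app hT.conf.h₁.2.1
  have toK : ∀ k ∈ Pw G Z, k y₀ = y₀ → k ∈ Pw G (Ss t₁ t₂) := by
    intro k hk hk0
    refine ⟨hk.1, fun p hp => ?_⟩
    rw [hSZ, Finset.mem_insert] at hp
    rcases hp with rfl | hp
    · exact hk0
    · exact hk.2 p hp
  have toX : ∀ k ∈ Pw G (Ss t₁ t₂), k ∈ Pw G Z ∧ k y₀ = y₀ := by
    intro k hk
    exact ⟨⟨hk.1, fun p hp => hk.2 p (hsub hp)⟩, hk.2 _ hy₀S⟩
  have hf2 := t1f_notMem hG hT hf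
  have key := tournament (Pw G Z) (y₀ := y₀) (f₁ := f₁) (f₂ := t₁ f₁) ?_ Zᶜ ?_ ?_ ?_ ?_ ?_ ?_ ?_ t₁
    ?_ ?_ ?_
  · intro k hk
    exact key k (toX k hk).1 (toX k hk).2
  · intro h hh
    refine odd_of_fix_gt hf hh.1 (lt_of_lt_of_le hfZ (Finset.card_le_card ?_))
    intro p hp
    exact mem_fx.2 (hh.2 p hp)
  · intro h hh p hp
    rw [Finset.mem_compl] at hp ⊢
    intro hin
    apply hp
    have := hh.2 _ hin
    rwa [h.injective this] at hin
  · intro p hp
    exact htr p (Finset.mem_compl.1 hp)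
  · rw [Finset.mem_compl]
    exact hy
  · rw [Finset.mem_compl]
    exact fun h => hT.f1S (hsub h)
  · rintro rfl
    exact hT.f1S hy₀S
  · intro p hp hp0
    rw [Finset.mem_compl] at hp
    have hpS : p ∉ Ss t₁ t₂ := by
      rw [hSZ, Finset.mem_insert, not_or]
      exact ⟨hp0, hp⟩
    obtain ⟨k, hk, hk'⟩ := hT.cover p hpS
    exact ⟨k, (toX k hk).1, (toX k hk).2, hk'⟩
  · intro k hk hk0
    exact hT.disj k (toK k hk hk0)
  · intro k hk hk0
    have h3 := norm₁ hG hT.conf (toK k hk hk0)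
    refine ⟨_, (toX _ h3).1, (toX _ h3).2, ?_⟩
    simp only [Perm.mul_apply, h1u]
  · rw [Finset.mem_compl]
    exact fun h => hf2 (hsub h)
  · intro k hk hk0
    obtain ⟨k', hk', h1, h2⟩ := hT.stab k (toK k hk hk0)
    exact ⟨k', (toX _ hk').1, (toX _ hk').2, h1, h2⟩

/-- The conclusion once `K` fixes `f₁`. -/
theorem card_of_fix (h : ∀ k ∈ Pw G (Ss t₁ t₂), k f₁ = f₁) : Fintype.card α = f + 4 := by
  have h1u := app_app hT.conf.h₁.2.1
  have hf2 := t1f_notMem hG hT hf
  have hne : f₁ ≠ t₁ f₁ := by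
    have := hT.disj 1 (Subgroup.one_mem _)
    simpa using this
  have hc : (Ss t₁ t₂)ᶜ = {f₁, t₁ f₁} := by
    ext p
    simp only [Finset.mem_compl, Finset.mem_insert, Finset.mem_singleton]
    constructor
    · intro hp
      obtain ⟨k, hk, hk'⟩ := hT.cover p hp
      rcases hk' with hk' | hk'
      · left
        rw [← hk', h k hk]
      · right
        have h3 := h _ (norm₁ hG hT.conf hk)
        simp only [Perm.mul_apply] at h3
        have := congrArg t₁ h3
        rw [h1u] at this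
        rw [← hk', this]
    · rintro (rfl | rfl)
      · exact hT.f1S
      · exact hf2
  have h1 := Finset.card_add_card_compl (Ss t₁ t₂)
  rw [hc, Finset.card_pair hne, Ss_card hG hT.conf hf] at h1
  omega

/-- case `f = 2` -/
theorem two_f2 (hf2 : f = 2) : Fintype.card α = 6 := by
  have hc := hT.conf
  obtain ⟨h1, h2, h3, h4, h5, h6⟩ := hc.fr
  have hS : Ss t₁ t₂ = insert d {a, b, c} := by
    symm
    apply Finset.eq_of_subset_of_card_le
    · intro p hp
      simp only [Finset.mem_insert, Finset.mem_singleton] at hp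
      rcases hp with rfl | rfl | rfl | rfl
      · exact d_mem hG hc
      · exact a_mem hG hc
      · exact b_mem hG hc
      · exact c_mem hG hc
    · rw [Ss_card hG hc hf, hf2, Finset.card_insert_of_notMem, Finset.card_insert_of_notMem,
        Finset.card_pair h4]
      · simp only [Finset.mem_insert, Finset.mem_singleton, not_or]
        exact ⟨h1, h2⟩
      · simp only [Finset.mem_insert, Finset.mem_singleton, not_or]
        exact ⟨h3.symm, h5.symm, h6.symm⟩
  have hZ : ({a, b, c} : Finset α).card = 3 := by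
    rw [Finset.card_insert_of_notMem, Finset.card_pair h4]
    simp only [Finset.mem_insert, Finset.mem_singleton, not_or]
    exact ⟨h1, h2⟩
  have key := two_tour hG hT hf hS (by
    simp only [Finset.mem_insert, Finset.mem_singleton, not_or]
    exact ⟨h3.symm, h5.symm, h6.symm⟩) (by rw [hZ]; omega) (by
    intro p hp
    simp only [Finset.mem_insert, Finset.mem_singleton, not_or] at hp
    obtain ⟨g, hg, g1, g2, g3, g4⟩ := hG.trans hc.fr
      (a' := a) (b' := b) (c' := c) (d' := p)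
      ⟨h1, h2, Ne.symm hp.1, h4, Ne.symm hp.2.1, Ne.symm hp.2.2⟩
    refine ⟨g, ⟨hg, fun q hq => ?_⟩, g4⟩
    simp only [Finset.mem_insert, Finset.mem_singleton] at hq
    rcases hq with rfl | rfl | rfl
    · exact g1
    · exact g2
    · exact g3)
  have := card_of_fix hG hT hf key
  omega

theorem f3_ii (hf3 : f = 3) {e : α} (hS : Ss t₁ t₂ = insert e {a, b, c, d})
    (he : e ∉ ({a, b, c, d} : Finset α))
    (hH : ∀ h ∈ Pw G {a, b, c, d}, h e = e) : ∀ k ∈ Pw G (Ss t₁ t₂), k f₁ = f₁ := by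
  by_contra hcon
  push Not at hcon
  obtain ⟨k₀, hk₀, hk₀f⟩ := hcon
  have hc := hT.conf
  obtain ⟨h1, h2, h3, h4, h5, h6⟩ := id hc.fr
  simp only [Finset.mem_insert, Finset.mem_singleton, not_or] at he
  obtain ⟨ea, eb, ec, ed⟩ := he
  have h1u := app_app hc.h₁.2.1
  have toK : ∀ h ∈ Pw G {a, b, c, d}, h ∈ Pw G (Ss t₁ t₂) := by
    intro h hh
    refine ⟨hh.1, fun p hp => ?_⟩
    rw [hS, Finset.mem_insert] at hp
    rcases hp with rfl | hp
    · exact hH h hh
    · exact hh.2 p hp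
  have toH : ∀ k ∈ Pw G (Ss t₁ t₂), k ∈ Pw G {a, b, c, d} := by
    intro k hk
    refine ⟨hk.1, fun p hp => hk.2 p ?_⟩
    rw [hS]
    exact Finset.mem_insert_of_mem hp
  have hfS : ∀ p, p ∉ Ss t₁ t₂ → p ≠ a ∧ p ≠ b ∧ p ≠ c ∧ p ≠ d ∧ p ≠ e := by
    intro p hp
    rw [hS] at hp
    simp only [Finset.mem_insert, Finset.mem_singleton, not_or] at hp
    exact ⟨hp.2.1, hp.2.2.1, hp.2.2.2.1, hp.2.2.2.2, hp.1⟩
  have hnt₁ : ¬ ∀ h ∈ Pw G (Ss t₁ t₂), h (t₁ f₁) = t₁ f₁ := by
    intro h'
    apply hk₀f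
    have h3 := h' _ (norm₁ hG hc hk₀)
    simp only [Perm.mul_apply, h1u] at h3
    exact t₁.injective h3
  have conj_mem : ∀ {k h}, k ∈ Pw G (Ss t₁ t₂) → h ∈ Pw G (Ss t₁ t₂) →
      k * h * k⁻¹ ∈ Pw G (Ss t₁ t₂) := fun hk hh =>
    (Pw G _).mul_mem ((Pw G _).mul_mem hk hh) ((Pw G _).inv_mem hk)
  have conj_app : ∀ (k h : Perm α) (q : α), (k * h * k⁻¹) (k q) = k (h q) := by
    intro k h q
    simp
  have hfix : ∀ p, (∀ h ∈ Pw G (Ss t₁ t₂), h p = p) → p ∈ Ss t₁ t₂ := by
    intro p hp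
    by_contra hpS
    obtain ⟨k, hk, hk'⟩ := hT.cover p hpS
    rcases hk' with hk' | hk'
    · apply hk₀f
      have := hp _ (conj_mem hk hk₀)
      rw [← hk', conj_app] at this
      exact k.injective this
    · apply hnt₁
      intro h hh
      have := hp _ (conj_mem hk hh)
      rw [← hk', conj_app] at this
      exact k.injective this
  have hfne := hfS f₁ hT.f1S
  obtain ⟨g, hg, g1, g2, g3, g4⟩ := hG.trans hc.fr (a' := a) (b' := b) (c' := c) (d' := f₁)
      ⟨h1, h2, hfne.1.symm, h4, hfne.2.1.symm, hfne.2.2.1.symm⟩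
  set fs := g e with hfsdef
  have ginv : ∀ {p q}, g p = q → g⁻¹ q = p := by
    intro p q h
    rw [← h]
    simp
  have fr1 : Fr a b c f₁ := ⟨h1, h2, hfne.1.symm, h4, hfne.2.1.symm, hfne.2.2.1.symm⟩
  have conjH : ∀ h ∈ Pw G {a, b, c, f₁}, g⁻¹ * h * g ∈ Pw G (Ss t₁ t₂) := by
    intro h hh
    apply toK
    refine ⟨G.mul_mem (G.mul_mem (G.inv_mem hg) hh.1) hg, fun p hp => ?_⟩
    simp only [Finset.mem_insert, Finset.mem_singleton] at hp
    simp only [Perm.mul_apply]
    rcases hp with rfl | rfl | rfl | rfl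
    · rw [g1, hh.2 _ (by simp), ginv g1]
    · rw [g2, hh.2 _ (by simp), ginv g2]
    · rw [g3, hh.2 _ (by simp), ginv g3]
    · rw [g4, hh.2 _ (by simp), ginv g4]
  have conjH' : ∀ h ∈ Pw G (Ss t₁ t₂), g * h * g⁻¹ ∈ Pw G {a, b, c, f₁} := by
    intro h hh
    refine ⟨G.mul_mem (G.mul_mem hg hh.1) (G.inv_mem hg), fun p hp => ?_⟩
    have hh' := toH h hh
    simp only [Finset.mem_insert, Finset.mem_singleton] at hp
    simp only [Perm.mul_apply]
    rcases hp with rfl | rfl | rfl | rfl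
    · rw [ginv g1, hh'.2 _ (by simp), g1]
    · rw [ginv g2, hh'.2 _ (by simp), g2]
    · rw [ginv g3, hh'.2 _ (by simp), g3]
    · rw [ginv g4, hh'.2 _ (by simp), g4]
  have hfs : ∀ h ∈ Pw G {a, b, c, f₁}, h fs = fs := by
    intro h hh
    have := (conjH h hh).2 e (by rw [hS]; exact Finset.mem_insert_self _ _)
    simp only [Perm.mul_apply] at this
    have h5 := congrArg g this
    simpa using h5
  have hfix' : ∀ p, (∀ h ∈ Pw G {a, b, c, f₁}, h p = p) →
      p = a ∨ p = b ∨ p = c ∨ p = f₁ ∨ p = fs := by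
    intro p hp
    have hq : ∀ h ∈ Pw G (Ss t₁ t₂), h (g⁻¹ p) = g⁻¹ p := by
      intro h hh
      have := hp _ (conjH' h hh)
      simp only [Perm.mul_apply] at this
      have h5 := congrArg (fun q => g⁻¹ q) this
      simpa using h5
    have hmem := hfix _ hq
    rw [hS] at hmem
    simp only [Finset.mem_insert, Finset.mem_singleton] at hmem
    have hp' : p = g (g⁻¹ p) := by simp
    rcases hmem with h' | h' | h' | h' | h'
    · right; right; right; right
      rw [hp', h']
    · left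
      rw [hp', h', g1]
    · right; left
      rw [hp', h', g2]
    · right; right; left
      rw [hp', h', g3]
    · right; right; right; left
      rw [hp', h', g4]
  have fsa : fs ≠ a := fun h => ea (g.injective (h.trans g1.symm))
  have fsb : fs ≠ b := fun h => eb (g.injective (h.trans g2.symm))
  have fsc : fs ≠ c := fun h => ec (g.injective (h.trans g3.symm))
  have fsf : fs ≠ f₁ := fun h => ed (g.injective (h.trans g4.symm))
  have hk₀H1 : k₀ ∉ Pw G {a, b, c, f₁} := fun h => hk₀f (h.2 _ (by simp))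
  have Hx_eq : ∀ {x y}, Fr a b c x → Fr a b c y → Pw G {a, b, c, x} ≤ Pw G {a, b, c, y} →
      Pw G {a, b, c, x} = Pw G {a, b, c, y} := by
    intro x y hx hy hle
    apply Subgroup.eq_of_le_of_card_ge hle
    obtain ⟨r, hr, r1, r2, r3, r4⟩ := hG.trans hy hx
    have rinv : ∀ {p q}, r p = q → r⁻¹ q = p := by
      intro p q h
      rw [← h]
      simp
    have hmem : ∀ h ∈ Pw G {a, b, c, y}, r * h * r⁻¹ ∈ Pw G {a, b, c, x} := by
      intro h hh
      refine ⟨G.mul_mem (G.mul_mem hr hh.1) (G.inv_mem hr), fun p hp => ?_⟩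
      simp only [Finset.mem_insert, Finset.mem_singleton] at hp
      simp only [Perm.mul_apply]
      rcases hp with rfl | rfl | rfl | rfl
      · rw [rinv r1, hh.2 _ (by simp), r1]
      · rw [rinv r2, hh.2 _ (by simp), r2]
      · rw [rinv r3, hh.2 _ (by simp), r3]
      · rw [rinv r4, hh.2 _ (by simp), r4]
    refine Nat.card_le_card_of_injective
      (fun h : ↥(Pw G {a, b, c, y}) => (⟨r * h * r⁻¹, hmem h h.2⟩ : ↥(Pw G {a, b, c, x}))) ?_
    intro h h' hhh
    have : r * (h : Perm α) * r⁻¹ = r * (h' : Perm α) * r⁻¹ := congrArg Subtype.val hhh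
    exact Subtype.ext (by simpa using this)
  -- `fs` is not `d`
  have fsd : fs ≠ d := by
    intro h
    have hle : Pw G {a, b, c, f₁} ≤ Pw G {a, b, c, d} := by
      intro x hx
      refine ⟨hx.1, fun p hp => ?_⟩
      simp only [Finset.mem_insert, Finset.mem_singleton] at hp
      rcases hp with rfl | rfl | rfl | rfl
      · exact hx.2 _ (by simp)
      · exact hx.2 _ (by simp)
      · exact hx.2 _ (by simp)
      · rw [← h]
        exact hfs x hx
    have := Hx_eq fr1 hc.fr hle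
    apply hk₀H1
    rw [this]
    exact toH _ hk₀
  have fse : fs ≠ e := by
    intro h
    have fre : Fr a b c e := ⟨h1, h2, Ne.symm ea, h4, Ne.symm eb, Ne.symm ec⟩
    have hle : Pw G {a, b, c, f₁} ≤ Pw G {a, b, c, e} := by
      intro x hx
      refine ⟨hx.1, fun p hp => ?_⟩
      simp only [Finset.mem_insert, Finset.mem_singleton] at hp
      rcases hp with rfl | rfl | rfl | rfl
      · exact hx.2 _ (by simp)
      · exact hx.2 _ (by simp)
      · exact hx.2 _ (by simp)
      · rw [← h]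
        exact hfs x hx
    have hle' : Pw G {a, b, c, d} ≤ Pw G {a, b, c, e} := by
      intro x hx
      refine ⟨hx.1, fun p hp => ?_⟩
      simp only [Finset.mem_insert, Finset.mem_singleton] at hp
      rcases hp with rfl | rfl | rfl | rfl
      · exact hx.2 _ (by simp)
      · exact hx.2 _ (by simp)
      · exact hx.2 _ (by simp)
      · exact hH x hx
    have e1 := Hx_eq fr1 fre hle
    have e2 := Hx_eq hc.fr fre hle'
    apply hk₀H1
    rw [e1, ← e2]
    exact toH _ hk₀
  have hfsS : fs ∉ Ss t₁ t₂ := by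
    rw [hS]
    simp only [Finset.mem_insert, Finset.mem_singleton, not_or]
    exact ⟨fse, fsa, fsb, fsc, fsd⟩
  obtain ⟨k, hk, hk'⟩ := hT.cover fs hfsS
  rcases hk' with hk' | hk'
  · -- `k` swaps `f₁` and `fs`
    have hkH := toH k hk
    have hfixk : k fs = f₁ := by
      have hq : ∀ h ∈ Pw G {a, b, c, f₁}, h (k fs) = k fs := by
        intro h hh
        have hmem : k⁻¹ * h * k ∈ Pw G {a, b, c, f₁} := by
          refine ⟨G.mul_mem (G.mul_mem (G.inv_mem hk.1) hh.1) hk.1, fun p hp => ?_⟩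
          have kinv : ∀ {p}, k p = p → k⁻¹ p = p := fun h => inv_fix h
          simp only [Finset.mem_insert, Finset.mem_singleton] at hp
          simp only [Perm.mul_apply]
          rcases hp with rfl | rfl | rfl | rfl
          · rw [hkH.2 _ (by simp), hh.2 _ (by simp), kinv (hkH.2 _ (by simp))]
          · rw [hkH.2 _ (by simp), hh.2 _ (by simp), kinv (hkH.2 _ (by simp))]
          · rw [hkH.2 _ (by simp), hh.2 _ (by simp), kinv (hkH.2 _ (by simp))]
          · rw [hk', hfs h hh, ← hk']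
            simp
        have := hfs _ hmem
        simp only [Perm.mul_apply] at this
        have h5 := congrArg k this
        simpa using h5
      rcases hfix' _ hq with h' | h' | h' | h' | h'
      · exact absurd (k.injective (h'.trans (hkH.2 a (by simp)).symm)) fsa
      · exact absurd (k.injective (h'.trans (hkH.2 b (by simp)).symm)) fsb
      · exact absurd (k.injective (h'.trans (hkH.2 c (by simp)).symm)) fsc
      · exact h'
      · exact absurd (k.injective (h'.trans hk'.symm)) fsf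
    have hodd := odd_Pw hG (S := Ss t₁ t₂) (by
      rw [Ss_card hG hc hf, hf3]; omega) hk
    have := fix_of_odd hodd (p := f₁) (by rw [hk', hfixk])
    exact fsf (hk'.symm.trans this)
  · -- `K` fixes `t₁ f₁`
    apply hnt₁
    have hall : ∀ k₂ ∈ Pw G (Ss t₁ t₂), k₂ (t₁ f₁) = fs := by
      intro k₂ hk₂
      obtain ⟨k₁, hk₁, a1, a2⟩ := hT.stab k hk
      obtain ⟨k₃, hk₃, a3, a4⟩ := hT.stab k₂ hk₂
      have hr : k₃ * k₁⁻¹ ∈ Pw G {a, b, c, f₁} := by
        have := toH _ ((Pw G _).mul_mem hk₃ ((Pw G _).inv_mem hk₁))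
        refine ⟨this.1, fun p hp => ?_⟩
        simp only [Finset.mem_insert, Finset.mem_singleton] at hp
        rcases hp with rfl | rfl | rfl | rfl
        · exact this.2 _ (by simp)
        · exact this.2 _ (by simp)
        · exact this.2 _ (by simp)
        · rw [Perm.mul_apply, inv_fix a1, a3]
      have h7 := hfs _ hr
      have h8 : k₁⁻¹ fs = t₁ f₁ := by
        rw [← hk', ← a2]
        simp
      rw [Perm.mul_apply, h8, a4] at h7
      exact h7
    intro h hh
    have e1 := hall 1 (Subgroup.one_mem _)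
    simp only [Perm.one_apply] at e1
    rw [hall h hh, e1]

/-- case `f = 3` -/
theorem two_f3 (hf3 : f = 3) : Fintype.card α = 7 := by
  have hc := hT.conf
  obtain ⟨h1, h2, h3, h4, h5, h6⟩ := id hc.fr
  have h1u := app_app hc.h₁.2.1
  have hZcard : ({a, b, c, d} : Finset α).card = 4 := by
    rw [Finset.card_insert_of_notMem, Finset.card_insert_of_notMem, Finset.card_pair h6]
    · simp only [Finset.mem_insert, Finset.mem_singleton, not_or]
      exact ⟨h4, h5⟩
    · simp only [Finset.mem_insert, Finset.mem_singleton, not_or]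
      exact ⟨h1, h2, h3⟩
  have hZsub : ({a, b, c, d} : Finset α) ⊆ Ss t₁ t₂ := by
    intro p hp
    simp only [Finset.mem_insert, Finset.mem_singleton] at hp
    rcases hp with rfl | rfl | rfl | rfl
    · exact a_mem hG hc
    · exact b_mem hG hc
    · exact c_mem hG hc
    · exact d_mem hG hc
  have hdiff : (Ss t₁ t₂ \ {a, b, c, d}).card = 1 := by
    rw [Finset.card_sdiff_of_subset hZsub, Ss_card hG hc hf, hZcard, hf3]
  obtain ⟨e, he⟩ := Finset.card_eq_one.1 hdiff
  have hememb : ∀ p, p ∈ Ss t₁ t₂ → p ∉ ({a, b, c, d} : Finset α) → p = e := by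
    intro p hp hp'
    have : p ∈ Ss t₁ t₂ \ {a, b, c, d} := Finset.mem_sdiff.2 ⟨hp, hp'⟩
    rw [he] at this
    simpa using this
  have heS : e ∈ Ss t₁ t₂ \ {a, b, c, d} := by rw [he]; simp
  rw [Finset.mem_sdiff] at heS
  obtain ⟨heS, heZ⟩ := heS
  have hS : Ss t₁ t₂ = insert e {a, b, c, d} := by
    ext p
    rw [Finset.mem_insert]
    constructor
    · intro hp
      by_cases hpZ : p ∈ ({a, b, c, d} : Finset α)
      · exact Or.inr hpZ
      · exact Or.inl (hememb p hp hpZ)
    · rintro (rfl | hp)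
      · exact heS
      · exact hZsub hp
  have hZinv : ∀ p, p ∈ ({a, b, c, d} : Finset α) → t₁ p ∈ ({a, b, c, d} : Finset α) := by
    intro p hp
    simp only [Finset.mem_insert, Finset.mem_singleton] at hp ⊢
    rcases hp with rfl | rfl | rfl | rfl
    · right; left; exact hc.t1a
    · left; exact hc.t1b
    · right; right; left; exact hc.t1c
    · right; right; right; exact hc.t1d
  have ht1e : t₁ e = e := by
    apply hememb _ (Ss_inv₁ hG hc heS)
    intro h
    have := hZinv _ h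
    rw [h1u] at this
    exact heZ this
  by_cases hH : ∀ h ∈ Pw G {a, b, c, d}, h e = e
  · have key := f3_ii hG hT hf hf3 hS heZ hH
    have := card_of_fix hG hT hf key
    omega
  · push Not at hH
    obtain ⟨h₀, hh₀, hne⟩ := hH
    have hnormH : ∀ h ∈ Pw G {a, b, c, d}, t₁ * h * t₁ ∈ Pw G {a, b, c, d} := by
      intro h hh
      refine ⟨G.mul_mem (G.mul_mem hc.h₁.1 hh.1) hc.h₁.1, fun p hp => ?_⟩
      simp only [Perm.mul_apply]
      rw [hh.2 _ (hZinv p hp), h1u]
    have toH : ∀ k ∈ Pw G (Ss t₁ t₂), k ∈ Pw G {a, b, c, d} := by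
      intro k hk
      exact ⟨hk.1, fun p hp => hk.2 p (hZsub hp)⟩
    have hqS : h₀ e ∉ Ss t₁ t₂ := by
      rw [hS, Finset.mem_insert, not_or]
      refine ⟨hne, fun h => heZ ?_⟩
      have := hh₀.2 _ h
      rwa [h₀.injective this] at h
    have reach : (∃ h ∈ Pw G {a, b, c, d}, h e = f₁) ∧
        (∃ h ∈ Pw G {a, b, c, d}, h e = t₁ f₁) := by
      obtain ⟨k, hk, hk'⟩ := hT.cover _ hqS
      have hmem := (Pw G {a, b, c, d}).mul_mem ((Pw G {a, b, c, d}).inv_mem (toH k hk)) hh₀
      rcases hk' with hk' | hk'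
      · have e1 : (k⁻¹ * h₀) e = f₁ := by
          rw [Perm.mul_apply, ← hk']
          simp
        refine ⟨⟨_, hmem, e1⟩, ⟨_, hnormH _ hmem, ?_⟩⟩
        simp only [Perm.mul_apply] at e1 ⊢
        rw [ht1e, e1]
      · have e1 : (k⁻¹ * h₀) e = t₁ f₁ := by
          rw [Perm.mul_apply, ← hk']
          simp
        refine ⟨⟨_, hnormH _ hmem, ?_⟩, ⟨_, hmem, e1⟩⟩
        simp only [Perm.mul_apply] at e1 ⊢
        rw [ht1e, e1, h1u]
    have key := two_tour hG hT hf hS heZ (by rw [hZcard, hf3]; omega) (by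
      intro p hp
      by_cases hpe : p = e
      · exact ⟨1, Subgroup.one_mem _, by rw [hpe]; rfl⟩
      · have hpS : p ∉ Ss t₁ t₂ := by
          rw [hS, Finset.mem_insert, not_or]
          exact ⟨hpe, hp⟩
        obtain ⟨k, hk, hk'⟩ := hT.cover p hpS
        obtain ⟨⟨r₁, hr₁, hr₁'⟩, ⟨r₂, hr₂, hr₂'⟩⟩ := reach
        rcases hk' with hk' | hk'
        · exact ⟨k * r₁, (Pw G _).mul_mem (toH k hk) hr₁, by rw [Perm.mul_apply, hr₁', hk']⟩
        · exact ⟨k * r₂, (Pw G _).mul_mem (toH k hk) hr₂, by rw [Perm.mul_apply, hr₂', hk']⟩)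
    have := card_of_fix hG hT hf key
    omega

end

end Cfsg.Agent.Lib.FourOdd.TwoEnd
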