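import Cfsg.Agent.Lib.FourOdd.Cent
import Cfsg.Agent.Lib.FourOdd.TwoEnd

/-!
# Four-fold transitive groups with odd four-point stabilisers: the main theorem
-/

set_option autoImplicit false
set_option linter.unusedSectionVars false
set_option linter.style.haveILetI false

namespace Cfsg.Agent.Lib.FourOdd.Final

open Equiv
open Cfsg.Agent.Lib.FourOdd.Basic Cfsg.Agent.Lib.FourOdd.Types Cfsg.Agent.Lib.FourOdd.Core
open Cfsg.Agent.Lib.FourOdd.TwoOrb Cfsg.Agent.Lib.FourOdd.Rho Cfsg.Agent.Lib.FourOdd.Col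
open Cfsg.Agent.Lib.FourOdd.Colour Cfsg.Agent.Lib.FourOdd.Cent Cfsg.Agent.Lib.FourOdd.TwoEnd

variable {α : Type*} [Fintype α] [DecidableEq α]

/-- fixed-point-free involutive automorphisms invert -/
theorem inverted {H : Subgroup (Perm α)} {t : Perm α} (t2 : t * t = 1)
    (hnorm : ∀ h ∈ H, t * h * t ∈ H) (hfpf : ∀ h ∈ H, h * t = t * h → h = 1) :
    ∀ h ∈ H, t * h * t = h⁻¹ := by
  have htinv : t⁻¹ = t := inv_eq_of_mul_eq_one_left t2
  let φ : H → H := fun y => ⟨(y : Perm α)⁻¹ * (t * y * t), H.mul_mem (H.inv_mem y.2) (hnorm y y.2)⟩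
  have hinj : Function.Injective φ := by
    intro y y' h
    have e : (y : Perm α)⁻¹ * (t * y * t) = (y' : Perm α)⁻¹ * (t * y' * t) :=
      congrArg Subtype.val h
    have e2 : (y : Perm α)⁻¹ * (t * y) = (y' : Perm α)⁻¹ * (t * y') := by
      have := congrArg (fun k : Perm α => k * t) e
      simp only [mul_assoc, t2, mul_one] at this
      exact this
    have hr : (y' : Perm α) * (y : Perm α)⁻¹ ∈ H := H.mul_mem y'.2 (H.inv_mem y.2)
    have hcomm : ((y' : Perm α) * (y : Perm α)⁻¹) * t = t * ((y' : Perm α) * (y : Perm α)⁻¹) := by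
      calc ((y' : Perm α) * (y : Perm α)⁻¹) * t
          = y' * ((y : Perm α)⁻¹ * (t * y)) * (y : Perm α)⁻¹ := by group
        _ = y' * ((y' : Perm α)⁻¹ * (t * y')) * (y : Perm α)⁻¹ := by rw [e2]
        _ = t * ((y' : Perm α) * (y : Perm α)⁻¹) := by group
    have := hfpf _ hr hcomm
    rw [mul_inv_eq_one] at this
    exact Subtype.ext this.symm
  have hsurj := Finite.injective_iff_surjective.1 hinj
  intro h hh
  obtain ⟨y, hy⟩ := hsurj ⟨h, hh⟩
  have e : (y : Perm α)⁻¹ * (t * y * t) = h := congrArg Subtype.val hy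
  rw [← e]
  simp only [mul_inv_rev, htinv, inv_inv]
  calc t * ((y : Perm α)⁻¹ * (t * y * t)) * t = (t * (y : Perm α)⁻¹ * t) * y * (t * t) := by
        simp only [mul_assoc]
    _ = t * ((y : Perm α)⁻¹ * (t * y)) := by rw [t2]; simp only [mul_assoc, mul_one]
    _ = t * ((y : Perm α)⁻¹ * (t * y)) := rfl
    _ = _ := by simp only [mul_assoc]

section
variable {G : Subgroup (Perm α)} (hG : Hyp G) (hf : ∀ u, Invol G u → (fx u).card = 3)
include hG hf

/-- The `B2` case: the degree is 11. -/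
theorem b2_card (hB : B2 G) (h4 : Fintype.card α % 4 = 3) (h6 : 6 ≤ Fintype.card α) :
    Fintype.card α = 11 := by
  obtain ⟨a, b, c, d, fr, -⟩ := exists_fr (Finset.univ : Finset α) (by simp; omega)
  obtain ⟨t₁, t₂, hc⟩ := exists_conf hG fr
  have hu := hc.h₁
  have ha : t₁ a ≠ a := by rw [hc.t1a]; exact fr.1.symm
  have hcard := support_card_add hG (u := t₁)
  rw [hf _ hu] at hcard
  obtain ⟨a', x', ha', hx', hxa', hxb'⟩ := exists_two_cycles hG hu.2.1 (u := t₁) (by omega)
  have h6' := six_dvd hG hf hB hu ha' hx' hxa' hxb'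
  have hpsi := Psi_card hu.2.1 ha'
  rw [hf _ hu] at hpsi
  have h3 : ¬ 3 ∣ t₁.support.card := by omega
  have h8 := support_le_eight hG hf hB hu ha' hx' hxa' hxb' h3
  omega

/-- The `B2` case: `H` is trivial in degree 11. -/
theorem b2_triv (hB : B2 G) (hn : Fintype.card α = 11) {a b c d : α} (fr : Fr a b c d)
    {h : Perm α} (hh : h ∈ G) (ha : h a = a) (hb : h b = b) (hc' : h c = c) (hd : h d = d) :
    h = 1 := by
  obtain ⟨t₁, t₂, hc⟩ := exists_conf hG fr
  have hHmem : h ∈ Pw G {a, b, c, d} := by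
    refine ⟨hh, fun p hp => ?_⟩
    simp only [Finset.mem_insert, Finset.mem_singleton] at hp
    rcases hp with rfl | rfl | rfl | rfl <;> assumption
  have toFix : ∀ {k : Perm α}, k ∈ Pw G {a, b, c, d} → k a = a ∧ k b = b ∧ k c = c ∧ k d = d := by
    intro k hk
    exact ⟨hk.2 _ (by simp), hk.2 _ (by simp), hk.2 _ (by simp), hk.2 _ (by simp)⟩
  have h1u := app_app hc.h₁.2.1
  have h2u := app_app hc.h₂.2.1
  have hnorm₁ : ∀ k ∈ Pw G {a, b, c, d}, t₁ * k * t₁ ∈ Pw G {a, b, c, d} := by
    intro k hk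
    obtain ⟨k1, k2, k3, k4⟩ := toFix hk
    refine ⟨G.mul_mem (G.mul_mem hc.h₁.1 hk.1) hc.h₁.1, fun p hp => ?_⟩
    simp only [Finset.mem_insert, Finset.mem_singleton] at hp
    simp only [Perm.mul_apply]
    rcases hp with rfl | rfl | rfl | rfl
    · rw [hc.t1a, k2, hc.t1b]
    · rw [hc.t1b, k1, hc.t1a]
    · rw [hc.t1c, k3, hc.t1c]
    · rw [hc.t1d, k4, hc.t1d]
  have hnorm₂ : ∀ k ∈ Pw G {a, b, c, d}, t₂ * k * t₂ ∈ Pw G {a, b, c, d} := by
    intro k hk
    obtain ⟨k1, k2, k3, k4⟩ := toFix hk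
    refine ⟨G.mul_mem (G.mul_mem hc.h₂.1 hk.1) hc.h₂.1, fun p hp => ?_⟩
    simp only [Finset.mem_insert, Finset.mem_singleton] at hp
    simp only [Perm.mul_apply]
    rcases hp with rfl | rfl | rfl | rfl
    · rw [hc.t2a, k1, hc.t2a]
    · rw [hc.t2b, k2, hc.t2b]
    · rw [hc.t2c, k4, hc.t2d]
    · rw [hc.t2d, k3, hc.t2c]
  have hfpf₁ : ∀ k ∈ Pw G {a, b, c, d}, k * t₁ = t₁ * k → k = 1 := by
    intro k hk hcomm
    obtain ⟨k1, k2, k3, k4⟩ := toFix hk
    obtain ⟨e, he, hec, hed, hall⟩ := third_fix hf hc.h₁ hc.t1c hc.t1d fr.2.2.2.2.2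
    have hke : k e = e := by
      rcases hall _ (fx_inv hcomm he) with h5 | h5 | h5
      · exact absurd (k.injective (h5.trans k3.symm)) hec
      · exact absurd (k.injective (h5.trans k4.symm)) hed
      · exact h5
    refine U_triv hG hf hB hn hc.h₁ (a := a) (by rw [hc.t1a]; exact fr.1.symm) ⟨hk.1, hcomm⟩ k1 ?_
    intro p hp
    rcases hall p hp with rfl | rfl | rfl
    · exact k3
    · exact k4
    · exact hke
  have hfpf₂ : ∀ k ∈ Pw G {a, b, c, d}, k * t₂ = t₂ * k → k = 1 := by
    intro k hk hcomm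
    obtain ⟨k1, k2, k3, k4⟩ := toFix hk
    obtain ⟨e, he, hea, heb, hall⟩ := third_fix hf hc.h₂ hc.t2a hc.t2b fr.1
    have hke : k e = e := by
      rcases hall _ (fx_inv hcomm he) with h5 | h5 | h5
      · exact absurd (k.injective (h5.trans k1.symm)) hea
      · exact absurd (k.injective (h5.trans k2.symm)) heb
      · exact h5
    refine U_triv hG hf hB hn hc.h₂ (a := c) (by rw [hc.t2c]; exact fr.2.2.2.2.2.symm)
      ⟨hk.1, hcomm⟩ k3 ?_
    intro p hp
    rcases hall p hp with rfl | rfl | rfl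
    · exact k1
    · exact k2
    · exact hke
  have inv₁ := inverted hc.h₁.2.1 hnorm₁ hfpf₁ h hHmem
  have inv₂ := inverted hc.h₂.2.1 hnorm₂ hfpf₂ h hHmem
  -- `τ` centralises `h`
  have hτI : Invol G (t₁ * t₂) := by
    refine ⟨G.mul_mem hc.h₁.1 hc.h₂.1, ?_, ?_⟩
    · calc t₁ * t₂ * (t₁ * t₂) = t₁ * t₂ * (t₂ * t₁) := by rw [hc.comm]
        _ = t₁ * (t₂ * t₂) * t₁ := by simp only [mul_assoc]
        _ = 1 := by rw [hc.h₂.2.1, mul_one, hc.h₁.2.1]
    · intro h'
      have := congrArg (fun g : Perm α => g a) h'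
      simp only [Perm.mul_apply, hc.t2a, hc.t1a, Perm.one_apply] at this
      exact fr.1 this.symm
  have h1inv : t₁⁻¹ = t₁ := inv_eq_of_mul_eq_one_left hc.h₁.2.1
  have e1 : t₂ * h = h⁻¹ * t₂ := by
    calc t₂ * h = (t₂ * h * t₂) * t₂ := by rw [mul_assoc, mul_assoc, hc.h₂.2.1, mul_one]
      _ = h⁻¹ * t₂ := by rw [inv₂]
  have e2 : t₁ * h⁻¹ = h * t₁ := by
    have : (t₁ * h * t₁)⁻¹ = h := by rw [inv₁]; simp
    calc t₁ * h⁻¹ = (t₁ * h⁻¹ * t₁) * t₁ := by rw [mul_assoc, mul_assoc, hc.h₁.2.1, mul_one]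
      _ = (t₁ * h * t₁)⁻¹ * t₁ := by simp only [mul_inv_rev, h1inv, mul_assoc]
      _ = h * t₁ := by rw [this]
  have hcomm : h * (t₁ * t₂) = (t₁ * t₂) * h := by
    calc h * (t₁ * t₂) = (h * t₁) * t₂ := by rw [mul_assoc]
      _ = (t₁ * h⁻¹) * t₂ := by rw [e2]
      _ = t₁ * (h⁻¹ * t₂) := by rw [mul_assoc]
      _ = t₁ * (t₂ * h) := by rw [e1]
      _ = (t₁ * t₂) * h := by rw [mul_assoc]
  have hτa : (t₁ * t₂) a = b := by rw [Perm.mul_apply, hc.t2a, hc.t1a]
  have hτc : (t₁ * t₂) c = d := by rw [Perm.mul_apply, hc.t2c, hc.t1d]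
  refine U_triv hG hf hB hn hτI (a := a) (by rw [hτa]; exact fr.1.symm) ⟨hh, hcomm⟩ ha ?_
  exact hB hτI (a := a) (x := c) (by rw [hτa]; exact fr.1.symm)
    (by rw [hτc]; exact fr.2.2.2.2.2.symm) fr.2.1.symm (by rw [hτa]; exact fr.2.2.2.1.symm) hh hcomm
    ha hc'

end

theorem six_le {a b c d p q : α} (fr : Fr a b c d) (pa : p ≠ a) (pb : p ≠ b) (pc : p ≠ c)
    (pd : p ≠ d) (qa : q ≠ a) (qb : q ≠ b) (qc : q ≠ c) (qd : q ≠ d) (pq : p ≠ q) :
    6 ≤ Fintype.card α := by
  obtain ⟨h1, h2, h3, h4, h5, h6⟩ := fr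
  have h : ({a, b, c, d, p, q} : Finset α).card = 6 := by
    rw [Finset.card_insert_of_notMem, Finset.card_insert_of_notMem, Finset.card_insert_of_notMem,
      Finset.card_insert_of_notMem, Finset.card_pair pq]
    · simp only [Finset.mem_insert, Finset.mem_singleton, not_or]
      exact ⟨pd.symm, qd.symm⟩
    · simp only [Finset.mem_insert, Finset.mem_singleton, not_or]
      exact ⟨h6, pc.symm, qc.symm⟩
    · simp only [Finset.mem_insert, Finset.mem_singleton, not_or]
      exact ⟨h4, h5, pb.symm, qb.symm⟩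
    · simp only [Finset.mem_insert, Finset.mem_singleton, not_or]
      exact ⟨h1, h2, h3, pa.symm, qa.symm⟩
  have := Finset.card_le_univ ({a, b, c, d, p, q} : Finset α)
  omega

section
variable {G : Subgroup (Perm α)} (hG : Hyp G)
include hG

theorem small_top (hn : Fintype.card α ≤ 5) {a b c d : α} (fr : Fr a b c d) : G = ⊤ := by
  rw [eq_top_iff]
  intro σ _
  have inj := σ.injective
  obtain ⟨h1, h2, h3, h4, h5, h6⟩ := id fr
  have fr' : Fr (σ a) (σ b) (σ c) (σ d) :=
    ⟨inj.ne h1, inj.ne h2, inj.ne h3, inj.ne h4, inj.ne h5, inj.ne h6⟩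
  obtain ⟨g, hg, g1, g2, g3, g4⟩ := hG.trans fr fr'
  have hr : g⁻¹ * σ = 1 := by
    by_contra hne
    obtain ⟨p, hp⟩ : ∃ p, (g⁻¹ * σ) p ≠ p := by
      by_contra hcon
      push Not at hcon
      exact hne (Equiv.ext hcon)
    set r := g⁻¹ * σ with hrdef
    have ginv : ∀ {x y}, g x = y → g⁻¹ y = x := by
      intro x y h
      rw [← h]
      simp
    have ra : r a = a := by rw [hrdef, Perm.mul_apply, ← g1, ginv rfl]
    have rb : r b = b := by rw [hrdef, Perm.mul_apply, ← g2, ginv rfl]
    have rc : r c = c := by rw [hrdef, Perm.mul_apply, ← g3, ginv rfl]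
    have rd : r d = d := by rw [hrdef, Perm.mul_apply, ← g4, ginv rfl]
    have ne1 : ∀ {x}, r x = x → p ≠ x := by
      rintro x hx rfl
      exact hp hx
    have ne2 : ∀ {x}, r x = x → r p ≠ x := by
      intro x hx h
      exact ne1 hx (r.injective (h.trans hx.symm))
    have := six_le fr (ne1 ra) (ne1 rb) (ne1 rc) (ne1 rd) (ne2 ra) (ne2 rb) (ne2 rc) (ne2 rd)
      (Ne.symm hp)
    omega
  rw [inv_mul_eq_one] at hr
  rw [← hr]
  exact hg

theorem n6_triv (hn : Fintype.card α = 6) {a b c d : α} (fr : Fr a b c d) {h : Perm α}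
    (hh : h ∈ G) (ha : h a = a) (hb : h b = b) (hc : h c = c) (hd : h d = d) : h = 1 := by
  by_contra hne
  obtain ⟨p, hp⟩ : ∃ p, h p ≠ p := by
    by_contra hcon
    push Not at hcon
    exact hne (Equiv.ext hcon)
  have ne1 : ∀ {x}, h x = x → p ≠ x := by
    rintro x hx rfl
    exact hp hx
  have ne2 : ∀ {x}, h x = x → h p ≠ x := by
    intro x hx h'
    exact ne1 hx (h.injective (h'.trans hx.symm))
  have ne3 : ∀ {x}, h x = x → h (h p) ≠ x := by
    intro x hx h'
    exact ne2 hx (h.injective (h'.trans hx.symm))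
  have hodd := hG.odd hh fr ha hb hc hd
  have h7 : h (h p) ≠ p := fun h' => hp (fix_of_odd hodd h')
  have h8 : h (h p) ≠ h p := fun h' => hp (h.injective h')
  -- seven points
  obtain ⟨h1, h2, h3, h4, h5, h6⟩ := fr
  have hcard : ({a, b, c, d, p, h p, h (h p)} : Finset α).card = 7 := by
    rw [Finset.card_insert_of_notMem, Finset.card_insert_of_notMem, Finset.card_insert_of_notMem,
      Finset.card_insert_of_notMem, Finset.card_insert_of_notMem, Finset.card_pair (Ne.symm h8)]
    · simp only [Finset.mem_insert, Finset.mem_singleton, not_or]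
      exact ⟨Ne.symm hp, Ne.symm h7⟩
    · simp only [Finset.mem_insert, Finset.mem_singleton, not_or]
      exact ⟨(ne1 hd).symm, (ne2 hd).symm, (ne3 hd).symm⟩
    · simp only [Finset.mem_insert, Finset.mem_singleton, not_or]
      exact ⟨h6, (ne1 hc).symm, (ne2 hc).symm, (ne3 hc).symm⟩
    · simp only [Finset.mem_insert, Finset.mem_singleton, not_or]
      exact ⟨h4, h5, (ne1 hb).symm, (ne2 hb).symm, (ne3 hb).symm⟩
    · simp only [Finset.mem_insert, Finset.mem_singleton, not_or]
      exact ⟨h1, h2, h3, (ne1 ha).symm, (ne2 ha).symm, (ne3 ha).symm⟩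
  have := Finset.card_le_univ ({a, b, c, d, p, h p, h (h p)} : Finset α)
  omega

/-- In degree 7 the four-point stabilisers are nontrivial. -/
theorem n7_nontriv (hf : ∀ u, Invol G u → (fx u).card = 3) (hn : Fintype.card α = 7) {a b c d : α}
    (fr : Fr a b c d) : ∃ h ∈ G, h ≠ 1 ∧ h a = a ∧ h b = b ∧ h c = c ∧ h d = d := by
  by_contra hcon
  push Not at hcon
  have htriv : ∀ h ∈ G, h a = a → h b = b → h c = c → h d = d → h = 1 := by
    intro h hh h1 h2 h3 h4
    by_contra hne
    exact hcon h hh hne h1 h2 h3 h4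
  obtain ⟨t₁, t₂, hc⟩ := exists_conf hG fr
  obtain ⟨f₁, h1, h2, -⟩ := exists_f₁ hG hc hf
  have h1u := app_app hc.h₁.2.1
  have h2u := app_app hc.h₂.2.1
  have hτI : Invol G (t₁ * t₂) := by
    refine ⟨G.mul_mem hc.h₁.1 hc.h₂.1, ?_, ?_⟩
    · calc t₁ * t₂ * (t₁ * t₂) = t₁ * t₂ * (t₂ * t₁) := by rw [hc.comm]
        _ = t₁ * (t₂ * t₂) * t₁ := by simp only [mul_assoc]
        _ = 1 := by rw [hc.h₂.2.1, mul_one, hc.h₁.2.1]
    · intro h'
      have := congrArg (fun g : Perm α => g a) h'
      simp only [Perm.mul_apply, hc.t2a, hc.t1a, Perm.one_apply] at this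
      exact fr.1 this.symm
  set τ := t₁ * t₂ with hτ
  have τa : τ a = b := by rw [hτ, Perm.mul_apply, hc.t2a, hc.t1a]
  have τb : τ b = a := by rw [hτ, Perm.mul_apply, hc.t2b, hc.t1b]
  have τc : τ c = d := by rw [hτ, Perm.mul_apply, hc.t2c, hc.t1d]
  have τd : τ d = c := by rw [hτ, Perm.mul_apply, hc.t2d, hc.t1c]
  have τf : τ f₁ = f₁ := h1
  obtain ⟨e, he, hec, hed, hall⟩ := third_fix hf hc.h₁ hc.t1c hc.t1d fr.2.2.2.2.2
  have ht₂e : t₂ e = e := by
    rcases hall (t₂ e) (fx_inv hc.comm.symm he) with h5 | h5 | h5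
    · exfalso
      apply hed
      have := congrArg t₂ h5
      rw [h2u, hc.t2c] at this
      exact this
    · exfalso
      apply hec
      have := congrArg t₂ h5
      rw [h2u, hc.t2d] at this
      exact this
    · exact h5
  have τe : τ e = e := by rw [hτ, Perm.mul_apply, ht₂e, he]
  have hef : e ≠ f₁ := by
    rintro rfl
    exact h2 he
  have τcomm₁ : τ * t₁ = t₁ * τ := by
    rw [hτ, mul_assoc, ← hc.comm]
  set f₂ := t₁ f₁ with hf₂
  have τf₂ : τ f₂ = f₂ := fx_inv τcomm₁.symm τf |> fun h => by rw [hf₂]; exact h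
  have hτa : τ a ≠ a := by rw [τa]; exact fr.1.symm
  obtain ⟨s, hs, hs2, hsc, hsa, hsb, hse, hsf⟩ := exists_swap hG hτI hτa τe τf hef
  obtain ⟨i, hi, hie, hif, hall'⟩ := third_fix hf hτI τe τf hef
  have hf₂e : f₂ ≠ e := by
    intro h'
    apply hef
    have := congrArg t₁ h'
    rw [hf₂, h1u, he] at this
    exact this.symm
  have hf₂f : f₂ ≠ f₁ := h2
  have hf₂i : f₂ = i := by
    rcases hall' f₂ τf₂ with h' | h' | h'
    · exact absurd h' hf₂e
    · exact absurd h' hf₂f
    · exact h'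
  have hsf₂ : s f₂ = f₂ := by
    rcases hall' (s f₂) (fx_inv hsc τf₂) with h' | h' | h'
    · exfalso
      exact hf₂f (s.injective (h'.trans hsf.symm))
    · exfalso
      exact hf₂e (s.injective (h'.trans hse.symm))
    · rw [h', hf₂i]
  rw [τa] at hsb
  have hs1 : s ≠ 1 := by
    intro h'
    rw [h'] at hse
    exact hef hse
  have hf₂a : f₂ ≠ a := by
    intro h'
    rw [h', τa] at τf₂
    exact fr.1 τf₂.symm
  have hf₂b : f₂ ≠ b := by
    intro h'
    rw [h', τb] at τf₂
    exact fr.1 τf₂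
  obtain ⟨j, hj, hja, hjb, hall''⟩ := third_fix hf ⟨hs, hs2, hs1⟩ hsa hsb fr.1
  have hjf₂ : f₂ = j := by
    rcases hall'' f₂ hsf₂ with h' | h' | h'
    · exact absurd h' hf₂a
    · exact absurd h' hf₂b
    · exact h'
  -- the moved points of `τ`
  have hsupp : ∀ p, τ p ≠ p → p = a ∨ p = b ∨ p = c ∨ p = d := by
    have hsub : ({a, b, c, d} : Finset α) ⊆ τ.support := by
      intro p hp
      simp only [Finset.mem_insert, Finset.mem_singleton] at hp
      rw [Perm.mem_support]
      rcases hp with rfl | rfl | rfl | rfl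
      · rw [τa]; exact fr.1.symm
      · rw [τb]; exact fr.1
      · rw [τc]; exact fr.2.2.2.2.2.symm
      · rw [τd]; exact fr.2.2.2.2.2
    have hcard : ({a, b, c, d} : Finset α).card = 4 := by
      obtain ⟨h1, h2, h3, h4, h5, h6⟩ := fr
      rw [Finset.card_insert_of_notMem, Finset.card_insert_of_notMem, Finset.card_pair h6]
      · simp only [Finset.mem_insert, Finset.mem_singleton, not_or]
        exact ⟨h4, h5⟩
      · simp only [Finset.mem_insert, Finset.mem_singleton, not_or]
        exact ⟨h1, h2, h3⟩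
    have hs4 := support_card_add hG (u := τ)
    rw [hf _ hτI, hn] at hs4
    have heq := Finset.eq_of_subset_of_card_le hsub (by rw [hcard]; omega)
    intro p hp
    have : p ∈ τ.support := Perm.mem_support.2 hp
    rw [← heq] at this
    simpa using this
  have hsc1 : s c ≠ c := by
    intro h'
    rcases hall'' c h' with h5 | h5 | h5
    · exact fr.2.1 h5.symm
    · exact fr.2.2.2.1 h5.symm
    · have h6 : f₂ = c := hjf₂.trans h5.symm
      rw [h6, τc] at τf₂
      exact fr.2.2.2.2.2 τf₂.symm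
  have hτsc : τ (s c) ≠ s c := by
    rw [← comm_app hsc, τc]
    intro h'
    exact fr.2.2.2.2.2 (s.injective h').symm
  have hsc2 : s c = d := by
    rcases hsupp _ hτsc with h' | h' | h' | h'
    · exact absurd (s.injective (h'.trans hsa.symm)) fr.2.1.symm
    · exact absurd (s.injective (h'.trans hsb.symm)) fr.2.2.2.1.symm
    · exact absurd h' hsc1
    · exact h'
  have hsd : s d = c := by
    have := comm_app hsc c
    rw [τc, hsc2, τd] at this
    exact this
  have hr := htriv (s * t₂) (G.mul_mem hs hc.h₂.1) (by rw [Perm.mul_apply, hc.t2a, hsa])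
    (by rw [Perm.mul_apply, hc.t2b, hsb]) (by rw [Perm.mul_apply, hc.t2c, hsd])
    (by rw [Perm.mul_apply, hc.t2d, hsc2])
  have h2inv : t₂⁻¹ = t₂ := inv_eq_of_mul_eq_one_left hc.h₂.2.1
  rw [mul_eq_one_iff_eq_inv, h2inv] at hr
  rw [hr, ht₂e] at hse
  exact hef hse

end

/-- the hypothesis of the statement gives `Hyp` -/
theorem hyp_of (G : Subgroup (Perm α)) (hG : MulAction.IsMultiplyPretransitive G α 4)
    (x : Fin 4 ↪ α) (hodd : Odd (Nat.card (MulAction.stabilizer G x))) : Hyp G := by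
  have emb : ∀ {a b c d : α}, Fr a b c d → ∃ y : Fin 4 ↪ α, y 0 = a ∧ y 1 = b ∧ y 2 = c ∧ y 3 = d := by
    intro a b c d fr
    obtain ⟨h1, h2, h3, h4, h5, h6⟩ := fr
    refine ⟨⟨![a, b, c, d], ?_⟩, rfl, rfl, rfl, rfl⟩
    intro i j hij
    fin_cases i <;> fin_cases j <;> first
      | rfl
      | (exfalso; simp at hij; first | exact h1 hij | exact h2 hij | exact h3 hij | exact h4 hij
                                     | exact h5 hij | exact h6 hij | exact h1 hij.symm
                                     | exact h2 hij.symm | exact h3 hij.symm | exact h4 hij.symm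
                                     | exact h5 hij.symm | exact h6 hij.symm)
  refine ⟨?_, ?_⟩
  · intro a b c d a' b' c' d' fr fr'
    obtain ⟨y, y0, y1, y2, y3⟩ := emb fr
    obtain ⟨y', y0', y1', y2', y3'⟩ := emb fr'
    obtain ⟨g, hg⟩ := hG.exists_smul_eq y y'
    have key : ∀ i, (g : Perm α) (y i) = y' i := fun i => DFunLike.congr_fun hg i
    refine ⟨g, g.2, ?_, ?_, ?_, ?_⟩
    · rw [← y0, ← y0', key]
    · rw [← y1, ← y1', key]
    · rw [← y2, ← y2', key]
    · rw [← y3, ← y3', key]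
  · intro g hg a b c d fr ha hb hc hd
    obtain ⟨y, y0, y1, y2, y3⟩ := emb fr
    obtain ⟨k, hk⟩ := hG.exists_smul_eq x y
    have key : ∀ i, (k : Perm α) (x i) = y i := fun i => DFunLike.congr_fun hk i
    have hgy : ∀ i, g (y i) = y i := by
      intro i
      fin_cases i
      · change g (y 0) = y 0
        rw [y0, ha]
      · change g (y 1) = y 1
        rw [y1, hb]
      · change g (y 2) = y 2
        rw [y2, hc]
      · change g (y 3) = y 3
        rw [y3, hd]
    set g' : G := ⟨g, hg⟩ with hg'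
    have hmem : k⁻¹ * g' * k ∈ MulAction.stabilizer G x := by
      rw [MulAction.mem_stabilizer_iff]
      ext i
      change (k : Perm α)⁻¹ (g ((k : Perm α) (x i))) = x i
      rw [key, hgy, ← key]
      simp
    set m := Nat.card (MulAction.stabilizer G x) with hm
    have h1 : (⟨_, hmem⟩ : MulAction.stabilizer G x) ^ m = 1 := pow_card_eq_one'
    have h2 : (k⁻¹ * g' * k) ^ m = 1 := congrArg Subtype.val h1
    have h3 : (g' ^ m) = 1 := by
      have h4 : k⁻¹ * g' ^ m * k = 1 := by
        have := conj_pow (a := k⁻¹) (b := g') (i := m)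
        rw [inv_inv] at this
        rw [← this, h2]
      have h5 : g' ^ m = k * 1 * k⁻¹ := by
        rw [← h4]
        group
      rw [h5]
      group
    have h6 : g ^ m = 1 := congrArg Subtype.val h3
    exact Odd.of_dvd_nat hodd (orderOf_dvd_of_pow_eq_one h6)

theorem card_G (G : Subgroup (Perm α)) (hG : MulAction.IsMultiplyPretransitive G α 4)
    (x : Fin 4 ↪ α) :
    Nat.card G = (Fintype.card α).descFactorial 4 * Nat.card (MulAction.stabilizer G x) := by
  have h1 := Subgroup.index_mul_card (MulAction.stabilizer G x)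
  have h2 : (MulAction.stabilizer G x).index = (Set.univ : Set (Fin 4 ↪ α)).ncard := by
    rw [MulAction.index_stabilizer G x]
    congr 1
    refine Set.eq_univ_of_forall fun y => ?_
    obtain ⟨g, hg⟩ := hG.exists_smul_eq x y
    exact ⟨g, hg⟩
  rw [h2, Set.ncard_univ, Nat.card_eq_fintype_card, Fintype.card_embedding_eq] at h1
  simpa using h1.symm

theorem alt_of_index (G : Subgroup (Perm α)) (h : Nat.card G * 2 = (Fintype.card α).factorial) :
    G = alternatingGroup α := by
  apply Equiv.Perm.eq_alternatingGroup_of_index_eq_two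
  have h1 := Subgroup.card_mul_index G
  rw [Nat.card_eq_fintype_card (α := Perm α), Fintype.card_perm, ← h] at h1
  have hpos : 0 < Nat.card G := Nat.card_pos
  exact Nat.eq_of_mul_eq_mul_left hpos h1

/-- **Main theorem.** -/
theorem main (G : Subgroup (Perm α)) (hG : MulAction.IsMultiplyPretransitive G α 4)
    (x : Fin 4 ↪ α) (hodd : Odd (Nat.card (MulAction.stabilizer G x))) :
    ((Fintype.card α = 4 ∨ Fintype.card α = 5) ∧ G = ⊤) ∨
      ((Fintype.card α = 6 ∨ Fintype.card α = 7) ∧ G = alternatingGroup α) ∨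
        (Fintype.card α = 11 ∧ Nat.card G = 7920) := by
  have hH := hyp_of G hG x hodd
  have hn : 4 ≤ Fintype.card α := by
    simpa using Fintype.card_le_of_embedding x
  have fr : Fr (x 0) (x 1) (x 2) (x 3) := by
    refine ⟨x.injective.ne (by decide), x.injective.ne (by decide), x.injective.ne (by decide),
      x.injective.ne (by decide), x.injective.ne (by decide), x.injective.ne (by decide)⟩
  have hcard := card_G G hG x
  have hfix : ∀ k : MulAction.stabilizer G x, ∀ i, ((k : G) : Perm α) (x i) = x i := by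
    intro k i
    have := DFunLike.congr_fun (MulAction.mem_stabilizer_iff.1 k.2) i
    exact this
  have hmem : ∀ h ∈ G, h (x 0) = x 0 → h (x 1) = x 1 → h (x 2) = x 2 → h (x 3) = x 3 →
      ∃ k : MulAction.stabilizer G x, ((k : G) : Perm α) = h := by
    intro h hh h0 h1 h2 h3
    refine ⟨⟨⟨h, hh⟩, ?_⟩, rfl⟩
    rw [MulAction.mem_stabilizer_iff]
    ext i
    change h (x i) = x i
    fin_cases i
    · exact h0
    · exact h1
    · exact h2
    · exact h3
  have htriv : (∀ h ∈ G, h (x 0) = x 0 → h (x 1) = x 1 → h (x 2) = x 2 → h (x 3) = x 3 → h = 1) →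
      Nat.card (MulAction.stabilizer G x) = 1 := by
    intro h
    rw [Nat.card_eq_one_iff_unique]
    refine ⟨⟨fun k k' => ?_⟩, ⟨1⟩⟩
    have e : ∀ k : MulAction.stabilizer G x, k = 1 := by
      intro k
      apply Subtype.ext
      apply Subtype.ext
      exact h _ (k : G).2 (hfix k 0) (hfix k 1) (hfix k 2) (hfix k 3)
    rw [e k, e k']
  rcases classify hH hn with h | h | ⟨f, hf23, h4, h6, hf⟩
  · exact Or.inl ⟨Or.inl h, small_top hH (by omega) fr⟩
  · exact Or.inl ⟨Or.inr h, small_top hH (by omega) fr⟩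
  right
  obtain ⟨t₁, t₂, hc⟩ := exists_conf hH fr
  rcases hf23 with rfl | rfl
  · -- `f = 2`
    obtain ⟨f₁, hT⟩ := two_of hH hc hf le_rfl (twoO_f2 hH hf rfl)
    have hn6 := two_f2 hH hT hf rfl
    left
    refine ⟨Or.inl hn6, alt_of_index G ?_⟩
    rw [hcard, htriv (fun h hh h0 h1 h2 h3 => n6_triv hH hn6 fr hh h0 h1 h2 h3), hn6]
    decide
  · by_cases hB : B2 G
    · have hn11 := b2_card hH hf hB h4 h6
      right
      refine ⟨hn11, ?_⟩
      rw [hcard, htriv (fun h hh h0 h1 h2 h3 => b2_triv hH hf hB hn11 fr hh h0 h1 h2 h3), hn11]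
      decide
    · obtain ⟨f₁, hT⟩ := two_of hH hc hf (by norm_num) (twoO_f3 hH hf rfl hB)
      have hn7 := two_f3 hH hT hf rfl
      left
      refine ⟨Or.inr hn7, alt_of_index G ?_⟩
      -- the stabiliser has order 3
      have hcard3 : Nat.card (MulAction.stabilizer G x) = 3 := by
        let S : Finset α := Finset.univ.map x
        have hSx : ∀ p, p ∈ S ↔ ∃ i, x i = p := by
          intro p
          simp [S]
        have hiff : ∀ k : MulAction.stabilizer G x, ∀ p, ((k : G) : Perm α) p ∉ S ↔ p ∉ S := by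
          intro k p
          rw [not_iff_not, hSx, hSx]
          constructor
          · rintro ⟨i, hi⟩
            refine ⟨i, ?_⟩
            have := hfix k i
            exact ((k : G) : Perm α).injective (this.trans hi)
          · rintro ⟨i, rfl⟩
            exact ⟨i, (hfix k i).symm⟩
        let ψ : MulAction.stabilizer G x →* Perm {p // p ∉ S} :=
          { toFun := fun k => ((k : G) : Perm α).subtypePerm (hiff k)
            map_one' := by
              ext p
              rfl
            map_mul' := by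
              intro k k'
              ext p
              rfl }
        have hψ : Function.Injective ψ := by
          rw [injective_iff_map_eq_one]
          intro k hk
          apply Subtype.ext
          apply Subtype.ext
          ext p
          by_cases hp : p ∈ S
          · obtain ⟨i, rfl⟩ := (hSx p).1 hp
            rw [hfix k i]
            rfl
          · have := congrArg (fun π : Perm {p // p ∉ S} => ((π ⟨p, hp⟩ : {p // p ∉ S}) : α)) hk
            exact this
        have hdvd := Subgroup.card_dvd_of_injective ψ hψ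
        have hScard : S.card = 4 := by simp [S]
        have hc3 : Fintype.card {p // p ∉ S} = 3 := by
          rw [Fintype.card_subtype]
          have : Finset.univ.filter (fun p => p ∉ S) = Sᶜ := by
            ext p
            simp
          rw [this, Finset.card_compl, hScard, hn7]
        rw [Nat.card_eq_fintype_card (α := Perm {p // p ∉ S}), Fintype.card_perm, hc3] at hdvd
        have hle : Nat.card (MulAction.stabilizer G x) ≤ 6 := Nat.le_of_dvd (by decide) hdvd
        have hne1 : Nat.card (MulAction.stabilizer G x) ≠ 1 := by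
          intro h1
          obtain ⟨h, hh, hh1, h0, h1', h2, h3⟩ := n7_nontriv hH hf hn7 fr
          obtain ⟨k, hk⟩ := hmem h hh h0 h1' h2 h3
          rw [Nat.card_eq_one_iff_unique] at h1
          have e : k = 1 := Subsingleton.elim _ _ (h := h1.1)
          rw [e] at hk
          exact hh1 hk.symm
        obtain ⟨m, hm⟩ := hodd
        have hne5 : Nat.card (MulAction.stabilizer G x) ≠ 5 := by
          intro h5
          rw [h5] at hdvd
          exact absurd hdvd (by decide)
        omega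
      rw [hcard, hcard3, hn7]
      decide

end Cfsg.Agent.Lib.FourOdd.Final
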