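import Cfsg.Agent.Lib.FourOdd.TwoOrb

/-!
# The action of a centraliser on the fixed points of an involution
-/

set_option autoImplicit false
set_option linter.unusedSectionVars false
set_option linter.style.haveILetI false

namespace Cfsg.Agent.Lib.FourOdd.Rho

open Equiv
open Cfsg.Agent.Lib.FourOdd.Basic Cfsg.Agent.Lib.FourOdd.Types Cfsg.Agent.Lib.FourOdd.Core
open Cfsg.Agent.Lib.FourOdd.TwoOrb

variable {α : Type*} [Fintype α] [DecidableEq α]

/-- centraliser of `u` in `G` -/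
def Dd (G : Subgroup (Perm α)) (u : Perm α) : Subgroup (Perm α) where
  carrier := {g | g ∈ G ∧ g * u = u * g}
  mul_mem' := by
    rintro x y ⟨hx, hx'⟩ ⟨hy, hy'⟩
    refine ⟨G.mul_mem hx hy, ?_⟩
    rw [mul_assoc, hy', ← mul_assoc, hx', mul_assoc]
  one_mem' := ⟨G.one_mem, by simp⟩
  inv_mem' := by
    rintro x ⟨hx, hx'⟩
    exact ⟨G.inv_mem hx, comm_inv hx'⟩

theorem mem_Dd {G : Subgroup (Perm α)} {u g : Perm α} : g ∈ Dd G u ↔ g ∈ G ∧ g * u = u * g :=
  Iff.rfl

/-- action on the fixed points -/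
def rho (G : Subgroup (Perm α)) (u : Perm α) : Dd G u →* Perm {p // u p = p} where
  toFun g := (g : Perm α).subtypePerm (fun p => by
    constructor
    · intro h
      have h2 := g.2.2
      rw [← comm_app h2] at h
      exact (g : Perm α).injective h
    · intro h
      exact fx_inv g.2.2 h)
  map_one' := by
    ext p
    simp
  map_mul' := by
    intro x y
    ext p
    rfl

theorem rho_apply {G : Subgroup (Perm α)} {u : Perm α} (g : Dd G u) (i : {p // u p = p}) :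
    ((rho G u g i) : α) = (g : Perm α) i := rfl

theorem rho_eq_one {G : Subgroup (Perm α)} {u : Perm α} {g : Dd G u} :
    rho G u g = 1 ↔ ∀ p, u p = p → (g : Perm α) p = p := by
  constructor
  · intro h p hp
    have := congrArg (fun π : Perm {p // u p = p} => ((π ⟨p, hp⟩ : {p // u p = p}) : α)) h
    simpa [rho_apply] using this
  · intro h
    ext i
    rw [rho_apply]
    exact h i i.2

theorem card_T {u : Perm α} : Fintype.card {p // u p = p} = (fx u).card := by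
  rw [Fintype.card_subtype]
  rfl

set_option maxRecDepth 100000 in
set_option synthInstance.maxSize 10000 in
set_option synthInstance.maxHeartbeats 0 in
theorem s3_cover_fin : ∀ π c s : Perm (Fin 3), c ≠ 1 → c * c * c = 1 → s ≠ 1 → s * s = 1 →
    (π = 1 ∨ π = c ∨ π = c * c) ∨ (π * s = 1 ∨ π * s = c ∨ π * s = c * c) := by
  decide

theorem s3_cover {T : Type*} [Fintype T] [DecidableEq T] (hT : Fintype.card T = 3)
    (π c s : Perm T) (hc : c ≠ 1) (hc3 : c * c * c = 1) (hs : s ≠ 1) (hs2 : s * s = 1) :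
    (π = 1 ∨ π = c ∨ π = c * c) ∨ (π * s = 1 ∨ π * s = c ∨ π * s = c * c) := by
  let e : T ≃ Fin 3 := Fintype.equivFinOfCardEq hT
  let φ : Perm T ≃* Perm (Fin 3) := e.permCongrHom
  have key := s3_cover_fin (φ π) (φ c) (φ s)
    (by rw [Ne, map_eq_one_iff φ φ.injective]; exact hc)
    (by rw [← map_mul, ← map_mul, hc3, map_one])
    (by rw [Ne, map_eq_one_iff φ φ.injective]; exact hs)
    (by rw [← map_mul, hs2, map_one])
  simp only [← map_mul, ← map_one φ, φ.injective.eq_iff] at key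
  exact key

theorem s2_cover_fin : ∀ π s : Perm (Fin 2), s ≠ 1 → π = 1 ∨ π * s = 1 := by
  decide

theorem s2_cover {T : Type*} [Fintype T] [DecidableEq T] (hT : Fintype.card T = 2)
    (π s : Perm T) (hs : s ≠ 1) : π = 1 ∨ π * s = 1 := by
  let e : T ≃ Fin 2 := Fintype.equivFinOfCardEq hT
  let φ : Perm T ≃* Perm (Fin 2) := e.permCongrHom
  have key := s2_cover_fin (φ π) (φ s) (by rw [Ne, map_eq_one_iff φ φ.injective]; exact hs)
  simp only [← map_mul, ← map_one φ, φ.injective.eq_iff] at key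
  exact key

/-- the `B2` property: elements of the centraliser fixing two cycles act trivially on the fixed
points. -/
def B2 (G : Subgroup (Perm α)) : Prop :=
  ∀ {u : Perm α} {a x : α} {y : Perm α}, Invol G u → u a ≠ a → u x ≠ x → x ≠ a → x ≠ u a →
    y ∈ G → y * u = u * y → y a = a → y x = x → ∀ p, u p = p → y p = p

section
variable {G : Subgroup (Perm α)} (hG : Hyp G) {f : ℕ} (hf : ∀ u, Invol G u → (fx u).card = f)
include hG hf

/-- the involution from `exists_s` acts nontrivially on the fixed points of `u` -/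
theorem rho_s_ne {u : Perm α} (hu : Invol G u) {a : α} (ha : u a ≠ a) {s : Perm α}
    (hs : s ∈ Dd G u) (hs2 : s * s = 1) (hs1 : s ≠ 1) (hsa : s a = a) :
    rho G u ⟨s, hs⟩ ≠ 1 := by
  intro h
  rw [rho_eq_one] at h
  have h1 : Invol G s := ⟨hs.1, hs2, hs1⟩
  have hsub : insert a (insert (u a) (fx u)) ⊆ fx s := by
    intro p hp
    simp only [Finset.mem_insert, mem_fx] at hp
    rw [mem_fx]
    rcases hp with rfl | rfl | hp
    · exact hsa
    · rw [comm_app hs.2, hsa]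
    · exact h p hp
  have h2 := Finset.card_le_card hsub
  rw [Finset.card_insert_of_notMem, Finset.card_insert_of_notMem, hf _ hu, hf _ h1] at h2
  · omega
  · rw [mem_fx, app_app hu.2.1]
    exact ha.symm
  · simp only [Finset.mem_insert, mem_fx, not_or]
    exact ⟨ha.symm, ha⟩

end

section
variable {G : Subgroup (Perm α)} (hG : Hyp G) {f : ℕ} (hf : ∀ u, Invol G u → (fx u).card = f)
include hG hf

/-- case `f = 2`: two orbits -/
theorem twoO_f2 (hf2 : f = 2) : TwoO G := by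
  intro u a x y hu ha hx hxa hxb hy hya hyb
  obtain ⟨v, hv, hv1, hv2, hv3⟩ := key_conj hG hu hu ha hx hxa hxb ha hy hya hyb
  obtain ⟨s, hs, hs2, hsc, hsa, hsb, hsx, hsy⟩ := exists_s hG hu ha hx hxa hxb
  have hsD : s ∈ Dd G u := ⟨hs, hsc⟩
  have hvD : v ∈ Dd G u := ⟨hv, hv1⟩
  have hs1 : s ≠ 1 := by
    intro h
    rw [h] at hsx
    exact hx hsx.symm
  have hne := rho_s_ne hG hf hu ha hsD hs2 hs1 hsa
  have hT : Fintype.card {p // u p = p} = 2 := by rw [card_T, hf _ hu, hf2]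
  rcases s2_cover hT (rho G u ⟨v, hvD⟩) _ hne with h | h
  · rw [rho_eq_one] at h
    exact ⟨v, hv, hv1, hv2, h, Or.inl hv3⟩
  · rw [← map_mul, rho_eq_one] at h
    refine ⟨v * s, G.mul_mem hv hs, ((Dd G u).mul_mem hvD hsD).2, ?_, h, Or.inr ?_⟩
    · rw [Perm.mul_apply, hsa, hv2]
    · rw [Perm.mul_apply, hsy, hv3]

/-- case `f = 3`, not `B2`: two orbits -/
theorem twoO_f3 (hf3 : f = 3) (hB : ¬ B2 G) : TwoO G := by
  intro u a x y hu ha hx hxa hxb hy hya hyb
  obtain ⟨v, hv, hv1, hv2, hv3⟩ := key_conj hG hu hu ha hx hxa hxb ha hy hya hyb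
  obtain ⟨s, hs, hs2, hsc, hsa, hsb, hsx, hsy⟩ := exists_s hG hu ha hx hxa hxb
  have hsD : s ∈ Dd G u := ⟨hs, hsc⟩
  have hvD : v ∈ Dd G u := ⟨hv, hv1⟩
  have hs1 : s ≠ 1 := by
    intro h
    rw [h] at hsx
    exact hx hsx.symm
  have hne := rho_s_ne hG hf hu ha hsD hs2 hs1 hsa
  have hT : Fintype.card {p // u p = p} = 3 := by rw [card_T, hf _ hu, hf3]
  -- a 3-element in the two-cycle stabiliser
  have hB' := hB
  unfold B2 at hB'
  push Not at hB'
  obtain ⟨u₀, a₀, x₀, y₀, hu₀, ha₀, hx₀, hxa₀, hxb₀, hy₀G, hy₀c, hy₀a, hy₀x, i₀, hi₀, hi₀'⟩ := hB'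
  obtain ⟨g, hg, hg1, hg2, hg3⟩ := key_conj hG hu₀ hu ha₀ hx₀ hxa₀ hxb₀ ha hx hxa hxb
  have ginv : ∀ {p q}, g p = q → g⁻¹ q = p := by
    intro p q h
    rw [← h]
    simp
  set r := g * y₀ * g⁻¹ with hr
  have hrG : r ∈ G := G.mul_mem (G.mul_mem hg hy₀G) (G.inv_mem hg)
  have hru : r * u = u * r := by
    have e1 : g⁻¹ * u = u₀ * g⁻¹ := by
      rw [inv_mul_eq_iff_eq_mul, ← mul_assoc, hg1, mul_assoc, mul_inv_cancel, mul_one]
    calc r * u = g * y₀ * (g⁻¹ * u) := by rw [hr]; simp only [mul_assoc]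
      _ = g * (y₀ * u₀) * g⁻¹ := by rw [e1]; simp only [mul_assoc]
      _ = (g * u₀) * y₀ * g⁻¹ := by rw [hy₀c]; simp only [mul_assoc]
      _ = u * r := by rw [hg1, hr]; simp only [mul_assoc]
  have hra : r a = a := by
    simp only [hr, Perm.mul_apply]
    rw [ginv hg2, hy₀a, hg2]
  have hrx : r x = x := by
    simp only [hr, Perm.mul_apply]
    rw [ginv hg3, hy₀x, hg3]
  have hrD : r ∈ Dd G u := ⟨hrG, hru⟩
  have hrb : r (u a) = u a := by rw [comm_app hru, hra]
  have hry : r (u x) = u x := by rw [comm_app hru, hrx]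
  have hρ : rho G u ⟨r, hrD⟩ ≠ 1 := by
    intro h
    rw [rho_eq_one] at h
    apply hi₀'
    have e2 : u (g i₀) = g i₀ := by
      have := congrArg (fun k : Perm α => k i₀) hg1
      simp only [Perm.mul_apply, hi₀] at this
      exact this.symm
    have := h _ e2
    simp only [hr, Perm.mul_apply] at this
    have e3 : g⁻¹ (g i₀) = i₀ := by simp
    rw [e3] at this
    exact g.injective this
  have hrodd : Odd (orderOf r) :=
    hG.odd hrG (fr_of hu.2.1 ha hx hxa hxb) hra hrb hrx hry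
  set c := rho G u ⟨r, hrD⟩ with hc
  have hc3 : c * c * c = 1 := by
    have h1 : orderOf c ∣ orderOf (⟨r, hrD⟩ : Dd G u) := orderOf_map_dvd _ _
    have h2 : orderOf (⟨r, hrD⟩ : Dd G u) = orderOf r :=
      Subgroup.orderOf_mk r hrD
    have h3 : orderOf c ∣ Nat.card (Perm {p // u p = p}) := orderOf_dvd_natCard c
    rw [Nat.card_eq_fintype_card, Fintype.card_perm, hT] at h3
    have h4 : Odd (orderOf c) := Odd.of_dvd_nat hrodd (h2 ▸ h1)
    have h5 : orderOf c ∣ 3 := by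
      have : Nat.Coprime (orderOf c) 2 := Nat.coprime_two_right.2 h4
      exact this.dvd_of_dvd_mul_left (by simpa [Nat.factorial] using h3)
    have h6 : c ^ 3 = 1 := orderOf_dvd_iff_pow_eq_one.1 h5
    rw [pow_succ, pow_two] at h6
    exact h6
  have fin1 : ∀ (r' : Perm α) (hr' : r' ∈ Dd G u), r' a = a → r' x = x →
      rho G u ⟨v, hvD⟩ = rho G u ⟨r', hr'⟩ →
      ∃ w ∈ G, w * u = u * w ∧ w a = a ∧ (∀ p, u p = p → w p = p) ∧ (w x = y ∨ w (u x) = y) := by
    intro r' hr' hr'a hr'x he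
    have hmem := (Dd G u).mul_mem hvD ((Dd G u).inv_mem hr')
    refine ⟨v * r'⁻¹, hmem.1, hmem.2, ?_, ?_, Or.inl ?_⟩
    · rw [Perm.mul_apply, inv_fix hr'a, hv2]
    · have : rho G u ⟨v * r'⁻¹, hmem⟩ = 1 := by
        have e : (⟨v * r'⁻¹, hmem⟩ : Dd G u) = ⟨v, hvD⟩ * ⟨r', hr'⟩⁻¹ := rfl
        rw [e, map_mul, map_inv, he, mul_inv_cancel]
      rw [rho_eq_one] at this
      exact this
    · rw [Perm.mul_apply, inv_fix hr'x, hv3]
  have fin2 : ∀ (r' : Perm α) (hr' : r' ∈ Dd G u), r' a = a → r' x = x →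
      rho G u ⟨v, hvD⟩ * rho G u ⟨s, hsD⟩ = rho G u ⟨r', hr'⟩ →
      ∃ w ∈ G, w * u = u * w ∧ w a = a ∧ (∀ p, u p = p → w p = p) ∧ (w x = y ∨ w (u x) = y) := by
    intro r' hr' hr'a hr'x he
    have hmem := (Dd G u).mul_mem ((Dd G u).mul_mem hvD hsD) ((Dd G u).inv_mem hr')
    have hr'y : r' (u x) = u x := by rw [comm_app hr'.2, hr'x]
    refine ⟨v * s * r'⁻¹, hmem.1, hmem.2, ?_, ?_, Or.inr ?_⟩
    · rw [Perm.mul_apply, inv_fix hr'a, Perm.mul_apply, hsa, hv2]
    · have : rho G u ⟨v * s * r'⁻¹, hmem⟩ = 1 := by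
        have e : (⟨v * s * r'⁻¹, hmem⟩ : Dd G u) = ⟨v, hvD⟩ * ⟨s, hsD⟩ * ⟨r', hr'⟩⁻¹ := rfl
        rw [e, map_mul, map_mul, map_inv, he, mul_inv_cancel]
      rw [rho_eq_one] at this
      exact this
    · rw [Perm.mul_apply, inv_fix hr'y, Perm.mul_apply, hsy, hv3]
  have h1D : (1 : Perm α) ∈ Dd G u := (Dd G u).one_mem
  have hrrD : r * r ∈ Dd G u := (Dd G u).mul_mem hrD hrD
  have e1 : rho G u ⟨1, h1D⟩ = 1 := map_one _
  have e2 : rho G u ⟨r * r, hrrD⟩ = c * c := by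
    have e : (⟨r * r, hrrD⟩ : Dd G u) = ⟨r, hrD⟩ * ⟨r, hrD⟩ := rfl
    rw [e, map_mul]
  rcases s3_cover hT (rho G u ⟨v, hvD⟩) c _ hρ hc3 hne (by
    rw [← map_mul]
    have e : (⟨s, hsD⟩ : Dd G u) * ⟨s, hsD⟩ = 1 := Subtype.ext hs2
    rw [e, map_one]) with h | h
  · rcases h with h | h | h
    · exact fin1 1 h1D rfl rfl (by rw [e1, h])
    · exact fin1 r hrD hra hrx h
    · exact fin1 (r * r) hrrD (by rw [Perm.mul_apply, hra, hra]) (by rw [Perm.mul_apply, hrx, hrx])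
        (by rw [e2, h])
  · rcases h with h | h | h
    · exact fin2 1 h1D rfl rfl (by rw [e1, h])
    · exact fin2 r hrD hra hrx h
    · exact fin2 (r * r) hrrD (by rw [Perm.mul_apply, hra, hra]) (by rw [Perm.mul_apply, hrx, hrx])
        (by rw [e2, h])

end

end Cfsg.Agent.Lib.FourOdd.Rho
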