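import Cfsg.Agent.Lib.FourOdd.Basic

/-!
# The tournament lemma

An odd transitive group whose point stabiliser `K` has two orbits `O₁ ∋ f₁`, `O₂ ∋ f₂` with
`K_{f₁}` transitive on `O₂` satisfies `|O₁| = 1`.
-/

set_option autoImplicit false
set_option linter.unusedSectionVars false
set_option linter.style.haveILetI false

namespace Cfsg.Agent.Lib.FourOdd.Tournament

open Equiv
open Cfsg.Agent.Lib.FourOdd.Basic

variable {α : Type*} [Fintype α] [DecidableEq α]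

theorem tournament (X : Subgroup (Perm α)) (hX : ∀ h ∈ X, Odd (orderOf h)) (Y : Finset α)
    (hXY : ∀ h ∈ X, ∀ p ∈ Y, h p ∈ Y) {y₀ f₁ f₂ : α} (htr : ∀ p ∈ Y, ∃ h ∈ X, h y₀ = p)
    (hy₀ : y₀ ∈ Y) (hf₁ : f₁ ∈ Y) (h10 : f₁ ≠ y₀)
    (hcov : ∀ p ∈ Y, p ≠ y₀ → ∃ k ∈ X, k y₀ = y₀ ∧ (k f₁ = p ∨ k f₂ = p))
    (hdisj : ∀ k ∈ X, k y₀ = y₀ → k f₁ ≠ f₂)
    (t : Perm α) (ht : ∀ k ∈ X, k y₀ = y₀ → ∃ k' ∈ X, k' y₀ = y₀ ∧ k' f₂ = t (k f₁))
    (hf₂ : f₂ ∈ Y)
    (hstab : ∀ k ∈ X, k y₀ = y₀ → ∃ k' ∈ X, k' y₀ = y₀ ∧ k' f₁ = f₁ ∧ k' f₂ = k f₂) :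
    ∀ k ∈ X, k y₀ = y₀ → k f₁ = f₁ := by
  classical
  let arc : α → α → Prop := fun p q => ∃ g ∈ X, g y₀ = p ∧ g f₁ = q
  have arc_inv : ∀ {p q}, arc p q → ∀ h ∈ X, arc (h p) (h q) := by
    rintro p q ⟨g, hg, rfl, rfl⟩ h hh
    exact ⟨h * g, X.mul_mem hh hg, rfl, rfl⟩
  have arc_irr : ∀ {p}, ¬ arc p p := by
    rintro p ⟨g, -, h1, h2⟩
    exact h10 (g.injective (h2.trans h1.symm))
  have arc_anti : ∀ {p q}, arc p q → ¬ arc q p := by
    rintro p q ⟨g, hg, rfl, rfl⟩ ⟨g', hg', h1, h2⟩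
    set r := g' * g⁻¹ with hr
    have hrX : r ∈ X := X.mul_mem hg' (X.inv_mem hg)
    have r1 : r (g y₀) = g f₁ := by simp [hr, h1]
    have r2 : r (g f₁) = g y₀ := by simp [hr, h2]
    have := fix_of_odd (hX r hrX) (p := g y₀) (by rw [r1, r2])
    rw [r1] at this
    exact h10 (g.injective this)
  -- `arc f₂ y₀`
  have arc20 : arc f₂ y₀ := by
    obtain ⟨h₀, hh₀, h₀1⟩ := htr f₁ hf₁
    set g' := h₀⁻¹ with hg'
    have hg'X : g' ∈ X := X.inv_mem hh₀
    have g1 : g' f₁ = y₀ := by rw [← h₀1, hg']; simp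
    have hne : g' y₀ ≠ y₀ := by
      intro h
      exact h10 (g'.injective (g1.trans h.symm))
    obtain ⟨k₁, hk₁, k10, hk⟩ := hcov (g' y₀) (hXY _ hg'X _ hy₀) hne
    rcases hk with hk | hk
    · exfalso
      set r := k₁⁻¹ * g' with hr
      have hrX : r ∈ X := X.mul_mem (X.inv_mem hk₁) hg'X
      have r1 : r y₀ = f₁ := by simp [hr, ← hk]
      have k10' : k₁⁻¹ y₀ = y₀ := by
        conv_lhs => rw [← k10]
        simp
      have r2 : r f₁ = y₀ := by rw [hr, Perm.mul_apply, g1, k10']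
      have := fix_of_odd (hX r hrX) (p := y₀) (by rw [r1, r2])
      exact h10 (r1.symm.trans this)
    · have k10' : k₁⁻¹ y₀ = y₀ := by
        conv_lhs => rw [← k10]
        simp
      refine ⟨k₁⁻¹ * g', X.mul_mem (X.inv_mem hk₁) hg'X, ?_, ?_⟩
      · simp [← hk]
      · rw [Perm.mul_apply, g1, k10']
  have arc_total : ∀ p ∈ Y, ∀ q ∈ Y, p ≠ q → arc p q ∨ arc q p := by
    intro p hp q hq hpq
    obtain ⟨g, hg, rfl⟩ := htr p hp
    have hz : g⁻¹ q ∈ Y := hXY _ (X.inv_mem hg) _ hq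
    have hz0 : g⁻¹ q ≠ y₀ := by
      intro h
      apply hpq
      rw [← h]
      simp
    obtain ⟨k, hk, k0, hk'⟩ := hcov _ hz hz0
    rcases hk' with hk' | hk'
    · left
      refine ⟨g * k, X.mul_mem hg hk, by simp [k0], ?_⟩
      simp [hk']
    · right
      have := arc_inv arc20 (g * k) (X.mul_mem hg hk)
      simpa [hk', k0] using this
  let out : α → Finset α := fun p => Y.filter (fun q => arc p q)
  have mem_out : ∀ {p q}, q ∈ out p ↔ q ∈ Y ∧ arc p q := by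
    intro p q
    simp [out]
  have card_out : (out f₁).card = (out y₀).card := by
    obtain ⟨h₀, hh₀, h₀1⟩ := htr f₁ hf₁
    have : out f₁ = (out y₀).image h₀ := by
      ext q
      simp only [Finset.mem_image, mem_out]
      constructor
      · rintro ⟨hq, harc⟩
        refine ⟨h₀⁻¹ q, ⟨hXY _ (X.inv_mem hh₀) _ hq, ?_⟩, by simp⟩
        have := arc_inv harc h₀⁻¹ (X.inv_mem hh₀)
        rw [← h₀1] at this
        simpa using this
      · rintro ⟨r, ⟨hr, harc⟩, rfl⟩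
        refine ⟨hXY _ hh₀ _ hr, ?_⟩
        have := arc_inv harc h₀ hh₀
        rwa [h₀1] at this
    rw [this, Finset.card_image_of_injective _ h₀.injective]
  let O₂ : Finset α := Y.filter (fun q => ∃ k ∈ X, k y₀ = y₀ ∧ k f₂ = q)
  have mem_O₂ : ∀ {q}, q ∈ O₂ ↔ q ∈ Y ∧ ∃ k ∈ X, k y₀ = y₀ ∧ k f₂ = q := by
    intro q
    simp [O₂]
  have card_O : (out y₀).card ≤ O₂.card := by
    apply Finset.card_le_card_of_injOn (fun q => t q)
    · intro q hq
      rw [Finset.mem_coe, mem_out] at hq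
      obtain ⟨-, k, hk, k0, rfl⟩ := hq
      obtain ⟨k', hk', k'0, hk''⟩ := ht k hk k0
      rw [Finset.mem_coe, mem_O₂]
      refine ⟨?_, k', hk', k'0, hk''⟩
      change t (k f₁) ∈ Y
      rw [← hk'']
      exact hXY _ hk' _ hf₂
    · intro x _ y _ h
      exact t.injective h
  have k1 : (1 : Perm α) ∈ X := X.one_mem
  have hf12 : f₁ ≠ f₂ := by
    have := hdisj 1 k1 rfl
    simpa using this
  -- elements of `O₂` are not in the orbit of `f₁`
  have hnot : ∀ k ∈ X, k y₀ = y₀ → ∀ k' ∈ X, k' y₀ = y₀ → k f₁ ≠ k' f₂ := by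
    intro k hk k0 k' hk' k'0 h
    have k'0' : k'⁻¹ y₀ = y₀ := by
      conv_lhs => rw [← k'0]
      simp
    refine hdisj (k'⁻¹ * k) (X.mul_mem (X.inv_mem hk') hk) (by rw [Perm.mul_apply, k0, k'0']) ?_
    simp [h]
  by_cases hα : arc f₁ f₂
  · -- all arcs go from `O₁` to `O₂`
    have hsub : O₂ ⊆ out f₁ := by
      intro q hq
      rw [mem_O₂] at hq
      obtain ⟨hqY, k, hk, k0, rfl⟩ := hq
      obtain ⟨k', hk', -, k'1, k'2⟩ := hstab k hk k0
      rw [mem_out]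
      refine ⟨hqY, ?_⟩
      have := arc_inv hα k' hk'
      rwa [k'1, k'2] at this
    have heq : O₂ = out f₁ := Finset.eq_of_subset_of_card_le hsub (by rw [card_out]; exact card_O)
    intro k hk k0
    by_contra hne
    have k0' : k⁻¹ y₀ = y₀ := by
      conv_lhs => rw [← k0]
      simp
    have hp : k f₁ ∈ Y := hXY _ hk _ hf₁
    rcases arc_total f₁ hf₁ (k f₁) hp (Ne.symm hne) with h | h
    · have : k f₁ ∈ O₂ := by
        rw [heq, mem_out]
        exact ⟨hp, h⟩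
      rw [mem_O₂] at this
      obtain ⟨-, k', hk', k'0, h'⟩ := this
      exact hnot k hk k0 k' hk' k'0 h'.symm
    · have h2 := arc_inv h k⁻¹ (X.inv_mem hk)
      have e : k⁻¹ (k f₁) = f₁ := by simp
      rw [e] at h2
      have : k⁻¹ f₁ ∈ O₂ := by
        rw [heq, mem_out]
        exact ⟨hXY _ (X.inv_mem hk) _ hf₁, h2⟩
      rw [mem_O₂] at this
      obtain ⟨-, k', hk', k'0, h'⟩ := this
      exact absurd h'.symm (hnot k⁻¹ (X.inv_mem hk) k0' k' hk' k'0)
  · -- impossible: too few out-neighbours of `f₁`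
    exfalso
    have h21 : arc f₂ f₁ := by
      rcases arc_total f₁ hf₁ f₂ hf₂ hf12 with h | h
      · exact absurd h hα
      · exact h
    have h01 : arc y₀ f₁ := ⟨1, k1, rfl, rfl⟩
    have hsub : out f₁ ⊆ (out y₀).erase f₁ := by
      intro r hr
      rw [mem_out] at hr
      obtain ⟨hrY, hr⟩ := hr
      rw [Finset.mem_erase, mem_out]
      have hr1 : r ≠ f₁ := by
        rintro rfl
        exact arc_irr hr
      have hr0 : r ≠ y₀ := by
        rintro rfl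
        exact arc_anti hr h01
      refine ⟨hr1, hrY, ?_⟩
      obtain ⟨k, hk, k0, hk'⟩ := hcov r hrY hr0
      rcases hk' with hk' | hk'
      · exact ⟨k, hk, k0, hk'⟩
      · exfalso
        obtain ⟨k', hk'', -, k'1, k'2⟩ := hstab k hk k0
        have := arc_inv h21 k' hk''
        rw [k'1, k'2, hk'] at this
        exact arc_anti hr this
    have h1 := Finset.card_le_card hsub
    rw [card_out, Finset.card_erase_of_mem (mem_out.2 ⟨hf₁, h01⟩)] at h1
    have h2 : 0 < (out y₀).card := Finset.card_pos.2 ⟨f₁, mem_out.2 ⟨hf₁, h01⟩⟩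
    omega

end Cfsg.Agent.Lib.FourOdd.Tournament
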