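import Cfsg.Agent.Lib.FourOdd.Core
import Cfsg.Agent.Lib.FourOdd.Tournament

/-!
# The two-orbit case
-/

set_option autoImplicit false
set_option linter.unusedSectionVars false
set_option linter.style.haveILetI false

namespace Cfsg.Agent.Lib.FourOdd.TwoOrb

open Equiv
open Cfsg.Agent.Lib.FourOdd.Basic Cfsg.Agent.Lib.FourOdd.Types Cfsg.Agent.Lib.FourOdd.Core

variable {α : Type*} [Fintype α] [DecidableEq α]

/-- two-orbit property: the centraliser's point stabiliser modulo its action on the fixed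
points has at most two orbits on the remaining cycles. -/
def TwoO (G : Subgroup (Perm α)) : Prop :=
  ∀ {u : Perm α} {a x y : α}, Invol G u → u a ≠ a → u x ≠ x → x ≠ a → x ≠ u a →
    u y ≠ y → y ≠ a → y ≠ u a →
    ∃ w ∈ G, w * u = u * w ∧ w a = a ∧ (∀ p, u p = p → w p = p) ∧ (w x = y ∨ w (u x) = y)

/-- union of the fixed point sets -/
def Ss (t₁ t₂ : Perm α) : Finset α := fx t₁ ∪ fx t₂

theorem mem_Ss {t₁ t₂ : Perm α} {p : α} : p ∈ Ss t₁ t₂ ↔ t₁ p = p ∨ t₂ p = p := by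
  simp [Ss, mem_fx]

theorem Ss_comm (t₁ t₂ : Perm α) : Ss t₁ t₂ = Ss t₂ t₁ := Finset.union_comm _ _

section
variable {G : Subgroup (Perm α)} (hG : Hyp G) {a b c d : α} {t₁ t₂ : Perm α}
  (hc : Conf G a b c d t₁ t₂)
include hG hc

theorem fx2_sub {p : α} (hp : t₂ p = p) (hpa : p ≠ a) (hpb : p ≠ b) : t₁ p = p := by
  by_contra h
  have huu := app_app hc.h₁.2.1
  have h1 : a ≠ t₁ p := by
    intro h2
    apply hpb
    have := congrArg t₁ h2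
    rw [huu, hc.t1a] at this
    exact this.symm
  have h2 : b ≠ t₁ p := by
    intro h2
    apply hpa
    have := congrArg t₁ h2
    rw [huu, hc.t1b] at this
    exact this.symm
  have fr : Fr a b p (t₁ p) := ⟨hc.fr.1, hpa.symm, h1, hpb.symm, h2, Ne.symm h⟩
  exact invol_no_four hG hc.h₂ fr hc.t2a hc.t2b hp (fx_inv hc.comm hp)

theorem Ss_card {f : ℕ} (hf : ∀ u, Invol G u → (fx u).card = f) : (Ss t₁ t₂).card = f + 2 := by
  have h1 : Ss t₁ t₂ = insert a (insert b (fx t₁)) := by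
    ext p
    simp only [mem_Ss, Finset.mem_insert, mem_fx]
    constructor
    · rintro (h | h)
      · exact Or.inr (Or.inr h)
      · by_cases ha : p = a
        · exact Or.inl ha
        · by_cases hb : p = b
          · exact Or.inr (Or.inl hb)
          · exact Or.inr (Or.inr (fx2_sub hG hc h ha hb))
    · rintro (rfl | rfl | h)
      · exact Or.inr hc.t2a
      · exact Or.inr hc.t2b
      · exact Or.inl h
  rw [h1, Finset.card_insert_of_notMem, Finset.card_insert_of_notMem, hf _ hc.h₁]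
  · rw [mem_fx, hc.t1b]
    exact hc.fr.1
  · simp only [Finset.mem_insert, mem_fx, not_or, hc.t1a]
    exact ⟨hc.fr.1, hc.fr.1.symm⟩

theorem Ss_inv₁ {p : α} (hp : p ∈ Ss t₁ t₂) : t₁ p ∈ Ss t₁ t₂ := by
  rw [mem_Ss] at hp ⊢
  rcases hp with h | h
  · left
    rw [h, h]
  · right
    exact fx_inv hc.comm h

theorem norm₁ {k : Perm α} (hk : k ∈ Pw G (Ss t₁ t₂)) : t₁ * k * t₁ ∈ Pw G (Ss t₁ t₂) := by
  refine ⟨G.mul_mem (G.mul_mem hc.h₁.1 hk.1) hc.h₁.1, fun p hp => ?_⟩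
  simp only [Perm.mul_apply]
  rw [hk.2 _ (Ss_inv₁ hG hc hp), app_app hc.h₁.2.1]

theorem norm₂ {k : Perm α} (hk : k ∈ Pw G (Ss t₁ t₂)) : t₂ * k * t₂ ∈ Pw G (Ss t₁ t₂) := by
  have := norm₁ hG hc.symm (k := k) (by rw [Ss_comm]; exact hk)
  rwa [Ss_comm] at this

theorem a_mem : a ∈ Ss t₁ t₂ := mem_Ss.2 (Or.inr hc.t2a)
theorem b_mem : b ∈ Ss t₁ t₂ := mem_Ss.2 (Or.inr hc.t2b)
theorem c_mem : c ∈ Ss t₁ t₂ := mem_Ss.2 (Or.inl hc.t1c)
theorem d_mem : d ∈ Ss t₁ t₂ := mem_Ss.2 (Or.inl hc.t1d)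

theorem exists_f₁ {f : ℕ} (hf : ∀ u, Invol G u → (fx u).card = f) :
    ∃ f₁, t₁ (t₂ f₁) = f₁ ∧ t₁ f₁ ≠ f₁ ∧ ∀ q, t₁ (t₂ q) = q → t₁ q ≠ q → q = f₁ ∨ q = t₁ f₁ := by
  have h1u := app_app hc.h₁.2.1
  have h2u := app_app hc.h₂.2.1
  have hτ : Invol G (t₁ * t₂) := by
    refine ⟨G.mul_mem hc.h₁.1 hc.h₂.1, ?_, ?_⟩
    · calc t₁ * t₂ * (t₁ * t₂) = t₁ * t₂ * (t₂ * t₁) := by rw [hc.comm]
        _ = t₁ * (t₂ * t₂) * t₁ := by simp only [mul_assoc]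
        _ = 1 := by rw [hc.h₂.2.1, mul_one, hc.h₁.2.1]
    · intro h
      have := congrArg (fun g : Perm α => g a) h
      simp only [Perm.mul_apply, hc.t2a, hc.t1a, Perm.one_apply] at this
      exact hc.fr.1 this.symm
  have h3 := hf _ hτ
  have h4 := Finset.card_union_add_card_inter (fx t₁) (fx t₂)
  have h5 : (fx t₁ ∪ fx t₂).card = f + 2 := Ss_card hG hc hf
  rw [h5, hf _ hc.h₁, hf _ hc.h₂] at h4
  have hsub : fx t₁ ∩ fx t₂ ⊆ fx (t₁ * t₂) := by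
    intro p hp
    simp only [Finset.mem_inter, mem_fx] at hp
    simp only [mem_fx, Perm.mul_apply, hp.2, hp.1]
  have h6 := Finset.card_sdiff_of_subset hsub
  rw [h3] at h6
  have h7 : (fx (t₁ * t₂) \ (fx t₁ ∩ fx t₂)).card = 2 := by omega
  obtain ⟨f₁, f₂, hne, hW⟩ := Finset.card_eq_two.1 h7
  have memW : ∀ q, q ∈ fx (t₁ * t₂) \ (fx t₁ ∩ fx t₂) ↔ t₁ (t₂ q) = q ∧ t₁ q ≠ q := by
    intro q
    simp only [Finset.mem_sdiff, mem_fx, Finset.mem_inter, Perm.mul_apply, not_and]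
    constructor
    · rintro ⟨h, h'⟩
      refine ⟨h, fun h'' => h' h'' ?_⟩
      have := congrArg t₁ h
      rw [h1u, h''] at this
      exact this
    · rintro ⟨h, h'⟩
      exact ⟨h, fun h'' => absurd h'' h'⟩
  have hf₁ : f₁ ∈ fx (t₁ * t₂) \ (fx t₁ ∩ fx t₂) := by rw [hW]; simp
  rw [memW] at hf₁
  have ht₁ : t₁ f₁ ∈ fx (t₁ * t₂) \ (fx t₁ ∩ fx t₂) := by
    rw [memW]
    refine ⟨?_, ?_⟩
    · rw [← comm_app hc.comm.symm, h1u]
      have := congrArg t₁ hf₁.1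
      rw [h1u] at this
      exact this
    · rw [h1u]
      exact hf₁.2.symm
  rw [hW] at ht₁
  simp only [Finset.mem_insert, Finset.mem_singleton] at ht₁
  have h8 : t₁ f₁ = f₂ := by
    rcases ht₁ with h | h
    · exact absurd h hf₁.2
    · exact h
  refine ⟨f₁, hf₁.1, hf₁.2, fun q hq hq' => ?_⟩
  have : q ∈ fx (t₁ * t₂) \ (fx t₁ ∩ fx t₂) := (memW q).2 ⟨hq, hq'⟩
  rw [hW] at this
  simp only [Finset.mem_insert, Finset.mem_singleton] at this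
  rwa [h8]

/-- Elements commuting with `t₁`, fixing `a` and `fx t₁` pointwise lie in `K`. -/
theorem mem_K_of {w : Perm α} (hw : w ∈ G) (hc1 : w * t₁ = t₁ * w) (ha : w a = a)
    (hT : ∀ p, t₁ p = p → w p = p) : w ∈ Pw G (Ss t₁ t₂) := by
  refine ⟨hw, fun p hp => ?_⟩
  rw [mem_Ss] at hp
  rcases hp with h | h
  · exact hT p h
  · by_cases hpa : p = a
    · rw [hpa, ha]
    · by_cases hpb : p = b
      · rw [hpb, ← hc.t1a, comm_app hc1, ha]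
      · exact hT p (fx2_sub hG hc h hpa hpb)

theorem cover_of (h2 : TwoO G) {x p : α} (hx : x ∉ Ss t₁ t₂) (hp : p ∉ Ss t₁ t₂) :
    ∃ w ∈ Pw G (Ss t₁ t₂), w * t₁ = t₁ * w ∧ (w x = p ∨ w (t₁ x) = p) := by
  rw [mem_Ss, not_or] at hx hp
  have hne : ∀ {q}, q ∉ Ss t₁ t₂ → q ≠ a ∧ q ≠ b := by
    intro q hq
    constructor
    · rintro rfl
      exact hq (a_mem hG hc)
    · rintro rfl
      exact hq (b_mem hG hc)
  have hxS : x ∉ Ss t₁ t₂ := by rw [mem_Ss, not_or]; exact hx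
  have hpS : p ∉ Ss t₁ t₂ := by rw [mem_Ss, not_or]; exact hp
  have hta : t₁ a ≠ a := by rw [hc.t1a]; exact hc.fr.1.symm
  obtain ⟨w, hw, hw1, hw2, hw3, hw4⟩ := h2 hc.h₁ (a := a) (x := x) (y := p) hta hx.1 (hne hxS).1
    (by rw [hc.t1a]; exact (hne hxS).2) hp.1 (hne hpS).1 (by rw [hc.t1a]; exact (hne hpS).2)
  exact ⟨w, mem_K_of hG hc hw hw1 hw2 hw3, hw1, hw4⟩

end

/-- The two-orbit configuration -/
structure Two (G : Subgroup (Perm α)) (a b c d : α) (t₁ t₂ : Perm α) (f₁ : α) : Prop where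
  conf : Conf G a b c d t₁ t₂
  f1τ : t₂ f₁ = t₁ f₁
  f1S : f₁ ∉ Ss t₁ t₂
  cover : ∀ p, p ∉ Ss t₁ t₂ → ∃ k ∈ Pw G (Ss t₁ t₂), k f₁ = p ∨ k (t₁ f₁) = p
  disj : ∀ k ∈ Pw G (Ss t₁ t₂), k f₁ ≠ t₁ f₁
  stab : ∀ k ∈ Pw G (Ss t₁ t₂), ∃ k' ∈ Pw G (Ss t₁ t₂), k' f₁ = f₁ ∧ k' (t₁ f₁) = k (t₁ f₁)

section
variable {G : Subgroup (Perm α)} (hG : Hyp G) {a b c d : α} {t₁ t₂ : Perm α}
  (hc : Conf G a b c d t₁ t₂) {f : ℕ} (hf : ∀ u, Invol G u → (fx u).card = f)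
  (hf2 : 2 ≤ f)
include hG hc hf hf2

theorem two_of (h2 : TwoO G) : ∃ f₁, Two G a b c d t₁ t₂ f₁ := by
  obtain ⟨f₁, h1, h2', h3⟩ := exists_f₁ hG hc hf
  have h1u := app_app hc.h₁.2.1
  have h2u := app_app hc.h₂.2.1
  have hτ : t₂ f₁ = t₁ f₁ := by
    have := congrArg t₁ h1
    rwa [h1u] at this
  have hS : f₁ ∉ Ss t₁ t₂ := by
    rw [mem_Ss, not_or]
    refine ⟨h2', fun h => h2' ?_⟩
    rw [← hτ, h]
  have hcard : 4 ≤ (Ss t₁ t₂).card := by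
    rw [Ss_card hG hc hf]
    omega
  have hodd : ∀ {k}, k ∈ Pw G (Ss t₁ t₂) → Odd (orderOf k) := fun hk => odd_Pw hG hcard hk
  have hdisj : ∀ k ∈ Pw G (Ss t₁ t₂), k f₁ ≠ t₁ f₁ := by
    intro k hk hkf
    set g := t₁ * k with hg
    have hgG : g ∈ G := G.mul_mem hc.h₁.1 hk.1
    have gT : ∀ p, t₁ p = p → g p = p := by
      intro p hp
      rw [hg, Perm.mul_apply, hk.2 p (mem_Ss.2 (Or.inl hp)), hp]
    have ga : g a = b := by rw [hg, Perm.mul_apply, hk.2 a (a_mem hG hc), hc.t1a]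
    have gb : g b = a := by rw [hg, Perm.mul_apply, hk.2 b (b_mem hG hc), hc.t1b]
    have gf : g f₁ = f₁ := by rw [hg, Perm.mul_apply, hkf, h1u]
    obtain ⟨m, hm1, hm2⟩ := lift_inv hG hgG hc.fr (by rw [ga, gb]) (by rw [gb, ga])
      (by rw [gT c hc.t1c, gT c hc.t1c]) (by rw [gT d hc.t1d, gT d hc.t1d])
    have hI : Invol G (g ^ m) := by
      refine ⟨G.pow_mem hgG m, hm1, fun h => ?_⟩
      have := hm2 a (by rw [ga, gb])
      rw [h, ga] at this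
      exact hc.fr.1 this
    have hsub : insert f₁ (fx t₁) ⊆ fx (g ^ m) := by
      intro p hp
      rw [Finset.mem_insert] at hp
      rw [mem_fx]
      rcases hp with rfl | hp
      · rw [hm2 _ (by rw [gf, gf]), gf]
      · rw [mem_fx] at hp
        rw [hm2 _ (by rw [gT p hp, gT p hp]), gT p hp]
    have := Finset.card_le_card hsub
    rw [Finset.card_insert_of_notMem (by rw [mem_fx]; exact h2'), hf _ hc.h₁, hf _ hI] at this
    omega
  have orb₁ : ∀ k ∈ Pw G (Ss t₁ t₂), ∃ w ∈ Pw G (Ss t₁ t₂), w * t₁ = t₁ * w ∧ w f₁ = k f₁ := by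
    intro k hk
    have hy : k f₁ ∉ Ss t₁ t₂ := by
      intro h
      apply hS
      have := hk.2 _ h
      rwa [k.injective this] at h
    obtain ⟨w, hw, hw1, hw2⟩ := cover_of hG hc h2 hS hy
    rcases hw2 with hw2 | hw2
    · exact ⟨w, hw, hw1, hw2⟩
    · exfalso
      refine hdisj (w⁻¹ * k) ((Pw G _).mul_mem ((Pw G _).inv_mem hw) hk) ?_
      rw [Perm.mul_apply, ← hw2]
      simp
  have orb₂ : ∀ k ∈ Pw G (Ss t₁ t₂), ∃ w ∈ Pw G (Ss t₁ t₂), w * t₂ = t₂ * w ∧ w f₁ = k f₁ := by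
    intro k hk
    have hy : k f₁ ∉ Ss t₁ t₂ := by
      intro h
      apply hS
      have := hk.2 _ h
      rwa [k.injective this] at h
    rw [Ss_comm] at hS hy
    obtain ⟨w, hw, hw1, hw2⟩ := cover_of hG hc.symm h2 hS hy
    rw [Ss_comm] at hS hy hw
    rcases hw2 with hw2 | hw2
    · exact ⟨w, hw, hw1, hw2⟩
    · exfalso
      rw [hτ] at hw2
      refine hdisj (w⁻¹ * k) ((Pw G _).mul_mem ((Pw G _).inv_mem hw) hk) ?_
      rw [Perm.mul_apply, ← hw2]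
      simp
  refine ⟨f₁, hc, hτ, hS, fun p hp => ?_, hdisj, fun k hk => ?_⟩
  · obtain ⟨w, hw, -, hw2⟩ := cover_of hG hc h2 hS hp
    exact ⟨w, hw, hw2⟩
  -- the main computation
  have h1inv : t₁⁻¹ = t₁ := inv_eq_of_mul_eq_one_left hc.h₁.2.1
  have h2inv : t₂⁻¹ = t₂ := inv_eq_of_mul_eq_one_left hc.h₂.2.1
  have hk'' := norm₁ hG hc hk
  obtain ⟨v, hv, hv1, hv2⟩ := orb₁ _ hk''
  set v' := t₂ * v * t₂ with hv'
  have hv'K := norm₂ hG hc hv
  have hv'1 : v' * t₁ = t₁ * v' := by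
    calc v' * t₁ = t₂ * v * (t₂ * t₁) := by rw [hv']; simp only [mul_assoc]
      _ = t₂ * (v * t₁) * t₂ := by rw [← hc.comm]; simp only [mul_assoc]
      _ = (t₂ * t₁) * v * t₂ := by rw [hv1]; simp only [mul_assoc]
      _ = t₁ * v' := by rw [← hc.comm, hv']; simp only [mul_assoc]
  set w := v * v'⁻¹ with hw
  have hwK : w ∈ Pw G (Ss t₁ t₂) := (Pw G _).mul_mem hv ((Pw G _).inv_mem hv'K)
  have hw1 : w * t₁ = t₁ * w := by
    rw [hw, mul_assoc, comm_inv hv'1, ← mul_assoc, hv1, mul_assoc]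
  have htw : t₂ * w * t₂ = w⁻¹ := by
    have e1 : t₂ * v'⁻¹ * t₂ = v⁻¹ := by
      rw [hv']
      simp only [mul_inv_rev, h2inv]
      calc t₂ * (t₂ * (v⁻¹ * t₂)) * t₂ = (t₂ * t₂) * v⁻¹ * (t₂ * t₂) := by simp only [mul_assoc]
        _ = v⁻¹ := by rw [hc.h₂.2.1]; simp
    calc t₂ * w * t₂ = (t₂ * v * t₂) * (t₂ * v'⁻¹ * t₂) := by
          rw [hw]
          calc t₂ * (v * v'⁻¹) * t₂ = t₂ * v * 1 * v'⁻¹ * t₂ := by simp only [mul_assoc, one_mul]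
            _ = _ := by rw [← hc.h₂.2.1]; simp only [mul_assoc]
      _ = v' * v⁻¹ := by rw [e1]
      _ = w⁻¹ := by rw [hw]; simp
  obtain ⟨m, hj1, hj2⟩ := exists_sqrt hG (hodd hwK) hc.h₂.2.1 htw
  set j := w ^ m with hj
  have hjK : j ∈ Pw G (Ss t₁ t₂) := (Pw G _).pow_mem hwK m
  have hj3 : j * t₁ = t₁ * j := by
    have : Commute w t₁ := hw1
    exact (this.pow_left m)
  set cc := j⁻¹ * v with hcc
  have hccK : cc ∈ Pw G (Ss t₁ t₂) := (Pw G _).mul_mem ((Pw G _).inv_mem hjK) hv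
  have hcc1 : cc * t₁ = t₁ * cc := by
    rw [hcc, mul_assoc, hv1, ← mul_assoc, comm_inv hj3, mul_assoc]
  have hv'w : v' = w⁻¹ * v := by
    rw [hw]
    simp
  have hcc2 : cc * t₂ = t₂ * cc := by
    have e2 : t₂ * j⁻¹ * t₂ = j := by
      have a1 : (t₂ * j * t₂)⁻¹ = j := by rw [hj2]; simp
      have a2 : (t₂ * j * t₂)⁻¹ = t₂ * j⁻¹ * t₂ := by simp only [mul_inv_rev, h2inv, mul_assoc]
      rw [← a2, a1]
    have e3 : t₂ * cc * t₂ = cc := by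
      calc t₂ * cc * t₂ = (t₂ * j⁻¹ * t₂) * (t₂ * v * t₂) := by
            rw [hcc]
            calc t₂ * (j⁻¹ * v) * t₂ = t₂ * j⁻¹ * 1 * v * t₂ := by simp only [mul_assoc, one_mul]
              _ = _ := by rw [← hc.h₂.2.1]; simp only [mul_assoc]
        _ = j * (w⁻¹ * v) := by rw [e2, ← hv', hv'w]
        _ = j * ((j * j)⁻¹ * v) := by rw [hj1]
        _ = cc := by rw [hcc]; group
    calc cc * t₂ = (t₂ * cc * t₂) * t₂ := by rw [e3]
      _ = t₂ * cc * (t₂ * t₂) := by simp only [mul_assoc]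
      _ = t₂ * cc := by rw [hc.h₂.2.1, mul_one]
  have hccf : cc f₁ = f₁ := by
    rcases h3 (cc f₁) (by rw [← comm_app hcc2, ← comm_app hcc1, h1])
      (by
        rw [← comm_app hcc1]
        intro h
        exact h2' (cc.injective h)) with h | h
    · exact h
    · exact absurd h (hdisj cc hccK)
  have hvj : v = j * cc := by rw [hcc]; group
  have hjf : j f₁ = t₁ (k (t₁ f₁)) := by
    have : v f₁ = j f₁ := by rw [hvj, Perm.mul_apply, hccf]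
    rw [← this, hv2]
    simp only [Perm.mul_apply]
  obtain ⟨m', hi1, hi2⟩ := exists_sqrt hG (hodd hjK) hc.h₂.2.1 hj2
  set i := j ^ m' with hi
  have hiK : i ∈ Pw G (Ss t₁ t₂) := (Pw G _).pow_mem hjK m'
  obtain ⟨u₂, hu₂, hu₂1, hu₂2⟩ := orb₂ _ ((Pw G _).inv_mem hiK)
  refine ⟨i * u₂, (Pw G _).mul_mem hiK hu₂, ?_, ?_⟩
  · rw [Perm.mul_apply, hu₂2]
    simp
  · have e4 : t₂ * i⁻¹ = i * t₂ := by
      have : (t₂ * i * t₂)⁻¹ = i := by rw [hi2]; simp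
      calc t₂ * i⁻¹ = t₂ * i⁻¹ * (t₂ * t₂) := by rw [hc.h₂.2.1, mul_one]
        _ = (t₂ * i * t₂)⁻¹ * t₂ := by simp only [mul_inv_rev, h2inv, mul_assoc]
        _ = i * t₂ := by rw [this]
    have e5 : t₂ (i⁻¹ f₁) = i (t₂ f₁) := by
      have := congrArg (fun g : Perm α => g f₁) e4
      simpa using this
    have e6 : j * t₁ = t₁ * j := hj3
    calc (i * u₂) (t₁ f₁) = i (u₂ (t₂ f₁)) := by rw [Perm.mul_apply, hτ]
      _ = i (t₂ (u₂ f₁)) := by rw [comm_app hu₂1]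
      _ = i (i (t₂ f₁)) := by rw [hu₂2, e5]
      _ = (i * i) (t₂ f₁) := rfl
      _ = j (t₁ f₁) := by rw [hi1, hτ]
      _ = t₁ (j f₁) := comm_app e6 _
      _ = k (t₁ f₁) := by rw [hjf, h1u]

end

end Cfsg.Agent.Lib.FourOdd.TwoOrb
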