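import Cfsg.Agent.Lib.FourOdd.Basic

/-!
# Fixed point numbers of involutions
-/

set_option autoImplicit false
set_option linter.unusedSectionVars false
set_option linter.style.haveILetI false

namespace Cfsg.Agent.Lib.FourOdd.Types

open Equiv
open Cfsg.Agent.Lib.FourOdd.Basic

variable {α : Type*} [Fintype α] [DecidableEq α]

theorem exists_fr (s : Finset α) (h : 4 ≤ s.card) :
    ∃ a b c d, Fr a b c d ∧ a ∈ s ∧ b ∈ s ∧ c ∈ s ∧ d ∈ s := by
  obtain ⟨s', hs, hc⟩ := Finset.exists_subset_card_eq h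
  obtain ⟨a, s1, ha, rfl, hc1⟩ := Finset.card_eq_succ.1 hc
  obtain ⟨b, s2, hb, rfl, hc2⟩ := Finset.card_eq_succ.1 hc1
  obtain ⟨c, d, hcd, rfl⟩ := Finset.card_eq_two.1 hc2
  refine ⟨a, b, c, d, ?_, hs (by simp), hs (by simp), hs (by simp), hs (by simp)⟩
  simp only [Finset.mem_insert, Finset.mem_singleton, not_or] at ha hb
  exact ⟨ha.1, ha.2.1, ha.2.2, hb.1, hb.2, hcd⟩

theorem Fr.swap12 {a b c d : α} (h : Fr a b c d) : Fr b a c d := by
  obtain ⟨h1, h2, h3, h4, h5, h6⟩ := h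
  exact ⟨h1.symm, h4, h5, h2, h3, h6⟩

theorem Fr.swap34 {a b c d : α} (h : Fr a b c d) : Fr a b d c := by
  obtain ⟨h1, h2, h3, h4, h5, h6⟩ := h
  exact ⟨h1, h3, h2, h5, h4, h6.symm⟩

theorem Fr.swap13 {a b c d : α} (h : Fr a b c d) : Fr c d a b := by
  obtain ⟨h1, h2, h3, h4, h5, h6⟩ := h
  exact ⟨h6, h2.symm, h4.symm, h3.symm, h5.symm, h1⟩

/-- conjugate permutations have equally many fixed points -/
theorem card_fx_conj {g u u' : Perm α} (h : g * u = u' * g) : (fx u').card = (fx u).card := by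
  have hmem : ∀ p, p ∈ fx u → g p ∈ fx u' := by
    intro p hp
    rw [mem_fx] at hp ⊢
    have := congrArg (fun k : Perm α => k p) h
    simp only [Perm.mul_apply, hp] at this
    exact this.symm
  have hmem' : ∀ p, p ∈ fx u' → g⁻¹ p ∈ fx u := by
    intro p hp
    rw [mem_fx] at hp ⊢
    have e : g (g⁻¹ p) = p := by simp
    have := congrArg (fun k : Perm α => k (g⁻¹ p)) h
    simp only [Perm.mul_apply, e, hp] at this
    apply g.injective
    rw [this, e]
  refine le_antisymm ?_ ?_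
  · apply Finset.card_le_card_of_injOn (fun p => g⁻¹ p) hmem'
    intro x _ y _ hxy
    exact g⁻¹.injective hxy
  · apply Finset.card_le_card_of_injOn (fun p => g p) hmem
    intro x _ y _ hxy
    exact g.injective hxy

section
variable {G : Subgroup (Perm α)} (hG : Hyp G)
include hG

/-- commuting involutions on a frame -/
theorem exists_pair {a b c d : α} (fr : Fr a b c d) :
    ∃ t₁ t₂ : Perm α, Invol G t₁ ∧ Invol G t₂ ∧ t₁ * t₂ = t₂ * t₁ ∧
      t₁ a = b ∧ t₁ b = a ∧ t₁ c = c ∧ t₁ d = d ∧ t₂ a = a ∧ t₂ b = b ∧ t₂ c = d ∧ t₂ d = c := by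
  obtain ⟨g₁, hg₁, h1, h2, h3, h4⟩ := hG.trans fr (Fr.swap12 fr)
  obtain ⟨m₁, hm1, hm2⟩ := lift_inv hG hg₁ fr (by rw [h1, h2]) (by rw [h2, h1]) (by rw [h3, h3])
    (by rw [h4, h4])
  obtain ⟨g₂, hg₂, k1, k2, k3, k4⟩ := hG.trans fr (Fr.swap34 fr)
  obtain ⟨m₂, hn1, hn2⟩ := lift_inv hG hg₂ fr (by rw [k1, k1]) (by rw [k2, k2]) (by rw [k3, k4])
    (by rw [k4, k3])
  set t₁ := g₁ ^ m₁
  set s := g₂ ^ m₂
  have ta : t₁ a = b := by rw [hm2 a (by rw [h1, h2]), h1]
  have tb : t₁ b = a := by rw [hm2 b (by rw [h2, h1]), h2]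
  have tc : t₁ c = c := by rw [hm2 c (by rw [h3, h3]), h3]
  have td : t₁ d = d := by rw [hm2 d (by rw [h4, h4]), h4]
  have sa : s a = a := by rw [hn2 a (by rw [k1, k1]), k1]
  have sb : s b = b := by rw [hn2 b (by rw [k2, k2]), k2]
  have sc : s c = d := by rw [hn2 c (by rw [k3, k4]), k3]
  have sd : s d = c := by rw [hn2 d (by rw [k4, k3]), k4]
  have ht₁G : t₁ ∈ G := G.pow_mem hg₁ _
  have hsG : s ∈ G := G.pow_mem hg₂ _
  obtain ⟨t₂, ht₂G, h22, hc, hagree⟩ := comm_of hG hsG ht₁G hn1 hm1 fr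
    (by rw [sa, ta, sb, tb]) (by rw [sb, tb, sa, ta]) (by rw [sc, td, sd, tc])
    (by rw [sd, tc, sc, td])
  have t₂a : t₂ a = a := by rw [hagree a (by rw [sa, ta, sb, tb]), sa]
  have t₂b : t₂ b = b := by rw [hagree b (by rw [sb, tb, sa, ta]), sb]
  have t₂c : t₂ c = d := by rw [hagree c (by rw [sc, td, sd, tc]), sc]
  have t₂d : t₂ d = c := by rw [hagree d (by rw [sd, tc, sc, td]), sd]
  refine ⟨t₁, t₂, ⟨ht₁G, hm1, ?_⟩, ⟨ht₂G, h22, ?_⟩, hc.symm, ta, tb, tc, td, t₂a, t₂b, t₂c, t₂d⟩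
  · rintro h
    rw [h] at ta
    exact fr.1 (by simpa using ta)
  · rintro h
    rw [h] at t₂c
    exact fr.2.2.2.2.2 (by simpa using t₂c)

/-- Two moved points in different cycles exist if the involution moves at least four points. -/
theorem exists_two_cycles {u : Perm α} (hu : u * u = 1) (h : 3 ≤ u.support.card) :
    ∃ a x, u a ≠ a ∧ u x ≠ x ∧ x ≠ a ∧ x ≠ u a := by
  obtain ⟨a, ha⟩ : u.support.Nonempty := Finset.card_pos.1 (by omega)
  have h3 : ((u.support.erase a).erase (u a)).card ≥ 1 := by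
    have h1 := Finset.pred_card_le_card_erase (s := u.support) (a := a)
    have h2 := Finset.pred_card_le_card_erase (s := u.support.erase a) (a := u a)
    omega
  obtain ⟨x, hx⟩ := Finset.card_pos.1 h3
  simp only [Finset.mem_erase, Perm.mem_support] at hx ha
  exact ⟨a, x, ha, hx.2.2, hx.2.1, hx.1⟩

theorem support_card_add {u : Perm α} : u.support.card + (fx u).card = Fintype.card α := by
  have : fx u = u.supportᶜ := by
    ext p
    simp [mem_fx]
  rw [this, Finset.card_add_card_compl]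

/-- Classification of the fixed point numbers. -/
theorem classify (hn : 4 ≤ Fintype.card α) :
    Fintype.card α = 4 ∨ Fintype.card α = 5 ∨
      ∃ f : ℕ, (f = 2 ∨ f = 3) ∧ Fintype.card α % 4 = f ∧ 6 ≤ Fintype.card α ∧
        ∀ u, Invol G u → (fx u).card = f := by
  by_cases h6 : 6 ≤ Fintype.card α
  swap
  · omega
  right; right
  obtain ⟨a, b, c, d, fr, -⟩ := exists_fr (Finset.univ : Finset α) (by simpa using hn)
  obtain ⟨t₁, t₂, h₁, h₂, hc, t1a, t1b, t1c, t1d, t2a, t2b, t2c, t2d⟩ := exists_pair hG fr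
  obtain ⟨τ, hτ⟩ : ∃ τ, τ = t₁ * t₂ := ⟨_, rfl⟩
  have τ2 : τ * τ = 1 := by
    calc τ * τ = t₁ * t₂ * (t₂ * t₁) := by rw [← hc, hτ]
      _ = 1 := by
        have := h₂.2.1
        have h1 := h₁.2.1
        calc t₁ * t₂ * (t₂ * t₁) = t₁ * (t₂ * t₂) * t₁ := by simp only [mul_assoc]
          _ = 1 := by rw [this, mul_one, h1]
  have τa : τ a = b := by rw [hτ, Perm.mul_apply, t2a, t1a]
  have τc : τ c = d := by rw [hτ, Perm.mul_apply, t2c, t1d]
  have hτI : Invol G τ := ⟨hτ ▸ G.mul_mem h₁.1 h₂.1, τ2, fun h => fr.1 (by rw [h] at τa; simpa using τa)⟩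
  -- all involutions are conjugate to `τ`
  have hall : ∀ u, Invol G u → (fx u).card = (fx τ).card := by
    intro u hu
    have h1 := fx_le hG hu
    have h2 := support_card_add hG (u := u)
    obtain ⟨a', x', ha', hx', hxa', hxb'⟩ := exists_two_cycles hG hu.2.1 (by omega)
    have h3 : τ a ≠ a := by rw [τa]; exact fr.1.symm
    have h4 : τ c ≠ c := by rw [τc]; exact fr.2.2.2.2.2.symm
    have h5 : c ≠ τ a := by rw [τa]; exact fr.2.2.2.1.symm
    obtain ⟨g, -, hg, -⟩ := key_conj hG hτI hu h3 h4 fr.2.1.symm h5 ha' hx' hxa' hxb'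
    exact card_fx_conj hg
  have hf₁ := hall t₁ h₁
  have hf₂ := hall t₂ h₂
  have hb4 := burnside_four h₁.2.1 h₂.2.1 hc h₁.2.2 h₂.2.2 (by
    intro h
    rw [h, t2a] at t1a
    exact fr.1 t1a)
  rw [← hτ, hf₁, hf₂] at hb4
  have hle := fx_le hG hτI
  have hge : 2 ≤ (fx τ).card := by
    rw [← hf₁]
    have hsub : ({c, d} : Finset α) ⊆ fx t₁ := by
      intro p hp
      simp only [Finset.mem_insert, Finset.mem_singleton] at hp
      rcases hp with rfl | rfl
      · exact mem_fx.2 t1c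
      · exact mem_fx.2 t1d
    have := Finset.card_le_card hsub
    rwa [Finset.card_pair fr.2.2.2.2.2] at this
  refine ⟨(fx τ).card, by omega, by omega, h6, hall⟩

end

end Cfsg.Agent.Lib.FourOdd.Types
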